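import Cfsg.Agent.Lib.BStd.VC
import Cfsg.Agent.Lib.BStd.Rho
import Cfsg.Agent.Lib.BStd.Fus

/-!
# The module of Co2 under the subgroup `U6(2)` (helper94, variants of lemmas of helper18's BSTD)
-/

set_option autoImplicit false
set_option maxRecDepth 100000

namespace H94.BE

open Cfsg H16 H95 H48.BR Subgroup H75.WC H18.BS

/-- membership in `U6(2)` -/
def UU (γ : C2) : Prop := (γ : Co0) • vX = vX

theorem UU.tb {γ : C2} (h : UU γ) : γ • tb = tb := fix_tb h

theorem UU.one : UU 1 := one_smul _ _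

theorem UU.mul {γ δ : C2} (h : UU γ) (h' : UU δ) : UU (γ * δ) := by rw [UU, coe_mul, mul_smul, h', h]

theorem UU.inv {γ : C2} (h : UU γ) : UU γ⁻¹ := inv_smul_eq_iff.2 h.symm

theorem UU.pow {γ : C2} (h : UU γ) (n : ℕ) : UU (γ ^ n) := by
  induction n with
  | zero => exact pow_zero γ ▸ UU.one
  | succ n ih => exact pow_succ γ n ▸ ih.mul h

theorem uu_eps {ε : C2} (h : Eps ε) (e : ε • tb = tb) : UU ε := eps_X h e

theorem om_transU {a : V} (h : Om a) : ∃ γ : C2, UU γ ∧ γ • a = tb + bb := om_trans h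

theorem normal_U {A : Subgroup C2} (h2 : IsPGroup 2 A) (hA : ∀ γ ∈ A, γ • tb = tb)
    (hn : ∀ s : C2, UU s → ∀ γ ∈ A, s * γ * s⁻¹ ∈ A) : A = ⊥ := by
  obtain ⟨e⟩ := Cfsg.Agent.S1577.base
  have : H11.U.IsSq H30.F4 2 := ⟨rfl⟩
  have : IsSimpleGroup (PSU 6 H30.F4 2) := H11.U.isSimpleGroup_PSU (by omega) (by omega)
  have := e.isSimpleGroup
  let ι : ↥(Stab vU ⊓ Stab vX) →* C2 := inclusion inf_le_left
  have hι : Function.Injective ι := inclusion_injective _
  have N : (A.comap ι).Normal := ⟨fun x hx g => by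
    rw [mem_comap, map_mul, map_mul, map_inv]
    exact hn (ι g) g.2.2 _ hx⟩
  have b : ∀ γ ∈ A, (γ : Co0) • vX = vX → γ = 1 := fun γ hγ f => by
    rcases N.eq_bot_or_eq_top with t | t
    · have : (⟨γ, γ.2, f⟩ : ↥(Stab vU ⊓ Stab vX)) ∈ A.comap ι := hγ
      rw [t, mem_bot] at this
      exact Subtype.ext (congrArg Subtype.val this :)
    · obtain ⟨n, c⟩ := (h2.comap_of_injective ι hι).exists_card_eq
      rw [t, card_top, card_U62] at c
      have : 3 ∣ 2 ^ n := c ▸ by norm_num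
      exact absurd (Nat.Prime.dvd_of_dvd_pow Nat.prime_three this) (by norm_num)
  refine (eq_bot_iff_forall _).2 fun γ hγ => b γ hγ ((fix_tb_iff.1 (hA γ hγ)).resolve_right fun f => ?_)
  refine VA.not_swap (fun c hc c1 c2 c3 => ?_) f
  have u := (VA.eps_U hc).2 ⟨c1, c2⟩
  have x : eps c hc • vX = vX := (H12.Co2.eps_fix_iff hc _).2 fun k hk => by
    rw [VA.X_apply, if_neg (fun e : k = none => c1 (e ▸ hk)), if_neg fun e : k = some 1 => c3 (e ▸ hk)]; rfl
  have k := b _ (A.mul_mem (A.inv_mem hγ) (hn ⟨_, u⟩ x γ hγ)) (by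
    simp only [coe_mul, coe_inv, mul_smul]
    rw [inv_smul_eq_iff.2 x.symm, f, smul_sub, u, x, inv_smul_eq_iff, f])
  have k' := congrArg Subtype.val (inv_mul_eq_one.1 k)
  simp only [coe_mul, coe_inv] at k'
  exact mul_inv_eq_iff_eq_mul.1 k'.symm

open VB Pointwise in
theorem normal_SbU {A : Subgroup C2} (h2 : IsPGroup 2 A) (hA : ∀ γ ∈ A, γ • tb = tb ∧ γ • bb = bb)
    (hn : ∀ s : C2, UU s → s • bb = bb → ∀ γ ∈ A, s * γ * s⁻¹ ∈ A) : ∀ γ ∈ A, Eps γ := by
  obtain ⟨ρ, hρ⟩ := exists_monoPerm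
  let ψ : A →* monoGroup := ((Stab vU).subtype.comp A.subtype).codRestrict _ fun γ => fix_bb_iff.1 (hA γ γ.2).2
  have k : ∀ γ : A, ∃ c, ∃ hc : c ∈ code, ((γ : C2) : Co0) = mono (ρ (ψ γ)) (ρ (ψ γ)).2 c hc := fun γ => by
    obtain ⟨σ, hσ, c, hc, e⟩ := (ψ γ).2
    rw [show ψ γ = ⟨mono σ hσ c hc, mono_mem hσ hc⟩ from Subtype.ext e, hρ]
    exact ⟨c, hc, e⟩
  have k1 : ∀ γ : A, (ρ (ψ γ) : Equiv.Perm GolayPt) (some 1) = some 1 := fun γ =>
    let ⟨_, _, e⟩ := k γ; mono_one e (hA γ γ.2).1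
  have kp : ∀ (γ : A) i, Pt ((ρ (ψ γ) : Equiv.Perm GolayPt) i) ↔ Pt i := fun γ i => let ⟨_, _, e⟩ := k γ; mono_pt e
  let _ : MulAction A GolayPt := MulAction.compHom GolayPt (ρ.comp ψ)
  let S : SubMulAction A GolayPt := ⟨{i | Pt i ∧ i ≠ some 1}, fun γ i h => ⟨(kp γ i).2 h.1, fun e =>
    h.2 ((ρ (ψ γ) : Equiv.Perm GolayPt).injective (e.trans (k1 γ).symm))⟩⟩
  have cS : Nat.card S = 21 := by
    show Nat.card {i : GolayPt // (i ≠ none ∧ i ≠ some 0) ∧ i ≠ some 1} = 21
    rw [Nat.card_eq_fintype_card]; decide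
  obtain ⟨⟨i, hi⟩, fi⟩ := h2.nonempty_fixed_point_of_prime_not_dvd_card S (by rw [cS]; norm_num)
  have f1 : ∀ γ : A, (ρ (ψ γ) : Equiv.Perm GolayPt) i = i := fun γ => congrArg Subtype.val (fi γ)
  intro γ hγ
  have f2 : ∀ j, Pt j → (ρ (ψ ⟨γ, hγ⟩) : Equiv.Perm GolayPt) j = j := fun j hj => by
    by_cases e : j = some 1
    · rw [e, k1]
    obtain ⟨π, hπ, p1, p2, p3, p4⟩ := H15.M24_trans4 (a := none) (b := some 0) (c := some 1) (by decide) (by decide)
      hj.1.symm (by decide) hj.2.symm (Ne.symm e) (a' := none) (b' := some 0) (c' := some 1) (by decide) (by decide)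
      hi.1.1.symm (by decide) hi.1.2.symm hi.2.symm
    let s : C2 := ⟨permHom ⟨π, hπ⟩, by rw [mem_Stab, U_eq, perm_pp, p1, p2]⟩
    have := f1 ⟨_, hn s (by rw [UU, X_eq, perm_pp, p1, p3]) (fix_bb_iff.2 (permHom_mem _)) γ hγ⟩
    rw [show ψ ⟨s * γ * s⁻¹, _⟩ = ⟨_, mono_mem hπ empty_mem_code⟩ * ψ ⟨γ, hγ⟩ * ⟨_, mono_mem hπ empty_mem_code⟩⁻¹
      from rfl, map_mul, map_mul, map_inv, hρ, ← p4] at this
    simpa using this
  obtain ⟨c, hc, e⟩ := k ⟨γ, hγ⟩
  generalize ρ (ψ ⟨γ, hγ⟩) = σ at f2 e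
  obtain ⟨σ, hσ⟩ := σ
  obtain ⟨d, hd, d1, d2⟩ := exists_code_sep (i := none) (j := some 0) (by decide)
  have pt : ∀ i, ¬ Pt i → i = none ∨ i = some 0 := fun i h => by unfold Pt at h; tauto
  have ed : symmDiff (σ⁻¹ • d) d = ∅ := eq_empty_of_card_lt (symmDiff_mem_code (smul_mem_code (inv_mem hσ) hd) hd)
    (lt_of_le_of_lt (Finset.card_le_card (t := {none, some 0}) fun p hp => by
      rw [Finset.mem_symmDiff, mem_inv_smul] at hp
      simpa using pt p fun q => by rw [show σ p = p from f2 p q] at hp; tauto) (by decide))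
  have e1 : σ none = none := by
    have : σ none ∈ d := by rwa [← mem_inv_smul, symmDiff_eq_bot.1 ed]
    exact (pt _ fun q => ((mono_pt e).1 q).1 rfl).resolve_right fun q => d2 (q ▸ this)
  obtain rfl : σ = 1 := Equiv.ext fun p => by
    by_cases q : Pt p
    · exact f2 p q
    rcases pt p q with rfl | rfl
    · exact e1
    · exact (pt _ fun r => q ((mono_pt e).1 r)).resolve_left fun r => absurd (σ.injective (r.trans e1.symm)) (by decide)
  exact ⟨c, hc, e⟩

/-- a permutation fixing the three points -/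
theorem exists_permU {σ : Equiv.Perm GolayPt} (hσ : σ ∈ M24) (h0 : σ none = none)
    (h1 : σ (some 0) = some 0) (h2 : σ (some 1) = some 1) :
    ∃ γ : C2, UU γ ∧ γ • bb = bb ∧ ∀ i, γ • xx i = xx (σ i) := by
  refine ⟨⟨permHom ⟨σ, hσ⟩, ?_⟩, ?_, fix_bb_iff.2 (permHom_mem _), fun i => ?_⟩
  · rw [mem_Stab, VB.U_eq, VC.smul_pp]; simp [h0, h1]
  · rw [UU, X_eq]; exact (VC.smul_pp _ _ _).trans (by simp [h0, h2])
  · rw [xx, smul_mk _ (pp_pp _ _)]
    exact congrArg mk ((VC.smul_pp _ _ _).trans (by simp [h0]))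

/-- conjugacy under the stabiliser of `tb` -/
def Cj (u v : V) : Prop := ∃ γ : C2, UU γ ∧ γ • u = v

theorem Cj.add {u v : V} (h : Cj u v) : Cj (u + tb) (v + tb) := by
  obtain ⟨γ, h1, h2⟩ := h
  exact ⟨γ, h1, by rw [smul_add, h1.tb, h2]⟩

theorem Cj.of_eq {u v v' : V} (h : Cj u v) (e : v' = v) : Cj u v' := e ▸ h

theorem cj_sign : Cj vb (vb + bb) := by
  have hc : H15.ofMask 7221256 ∈ code := H15.ofMask_mem_of_isCode (by decide +kernel)
  refine ⟨⟨eps _ hc, Subtype.ext ((coe_eps_smul hc _).trans (by decide +kernel))⟩, ?_, ?_⟩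
  · rw [UU, X_eq]; exact Subtype.ext ((coe_eps_smul hc _).trans (by decide +kernel))
  · rw [vb, smul_mk _ (pp_pp _ _), ← mk_pm]
    exact congrArg mk (Subtype.ext ((coe_eps_smul hc _).trans (by decide +kernel)))

theorem cj_pair (a b : GolayPt) (h : Function.Injective ![none, some 0, some 1, a, b]) :
    Cj vb (xx a + xx b + bb) ∧ Cj vb (xx a + xx b) := by
  obtain ⟨σ, hσ, e⟩ := H15.M24_trans5 ![none, some 0, some 1, some 2, some 3] _ (by decide) h
  obtain ⟨γ, h1, h2, h3⟩ := exists_permU hσ (e 0) (e 1) (e 2)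
  obtain ⟨r, r1, r2⟩ := cj_sign
  have k : γ • vb = xx a + xx b + bb := by
    rw [vb, mk_pp, smul_add, smul_add, h2, h3, h3]
    exact congrArg₂ (fun x y => xx x + xx y + bb) (e 3) (e 4)
  exact ⟨⟨γ, h1, k⟩, γ * r, h1.mul r1, by
    rw [mul_smul, r2, smul_add, k, h2, add_assoc, add_self, add_zero]⟩

open VC (rel xx_none xx_zero) in
theorem lineU {u : V} (hu : u = vb ∨ u = vb + tb) : ∃ v₁ v₂ v₃ : V,
    v₁ + v₂ + v₃ ∈ ({0, tb, u, tb + u} : Set V) ∧ ∀ v ∈ ({v₁, v₂, v₃} : Set V), be v u = 0 ∧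
      Cj u v ∧ Cj u (v + u) := by
  have e : vb = xx (some 2) + xx (some 3) + bb := mk_pp _ _
  have b : ∀ i j, be (xx i + xx j) vb = 0 ∧ be (xx i + xx j + tb) (vb + tb) = 0 := fun i j => by
    simp only [e, ← xx_one, ← xx_none, be_add_left, be_add_right, be_xx, add_zero, and_self]
  rcases hu with rfl | rfl
  · have r := rel (m := 10486557) (a := none) (b := some 0) (c := some 2) (d := some 3) (e := some 4)
      (f := some 8) (g := some 9) (k := some 21) (by decide +kernel) (by decide +kernel)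
    rw [xx_none, xx_zero] at r
    refine ⟨xx (some 2) + xx (some 4), xx (some 4) + xx (some 8), xx (some 2) + xx (some 8),
      Or.inl (by linear_combination (xx (some 2) + xx (some 4) + xx (some 8)) * two0), ?_⟩
    rintro _ (rfl | rfl | rfl) <;> refine ⟨(b _ _).1, (cj_pair _ _ (by decide)).2, ?_⟩
    · refine (cj_pair (some 3) (some 4) (by decide)).1.of_eq ?_
      rw [e]; linear_combination xx (some 2) * two0
    · refine (cj_pair (some 9) (some 21) (by decide)).2.of_eq ?_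
      rw [e]; linear_combination r - (xx (some 9) + xx (some 21)) * two0
    · refine (cj_pair (some 3) (some 8) (by decide)).1.of_eq ?_
      rw [e]; linear_combination xx (some 2) * two0
  · have r := rel (m := 8683614) (a := none) (b := some 1) (c := some 2) (d := some 3) (e := some 4)
      (f := some 6) (g := some 15) (k := some 18) (by decide +kernel) (by decide +kernel)
    rw [xx_none, xx_one] at r
    refine ⟨xx (some 4) + xx (some 6) + tb, xx (some 6) + xx (some 15) + tb, xx (some 4) + xx (some 15) + tb,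
      Or.inr (Or.inl (by linear_combination (xx (some 4) + xx (some 6) + xx (some 15) + tb) * two0)), ?_⟩
    rintro _ (rfl | rfl | rfl) <;> refine ⟨(b _ _).2, (cj_pair _ _ (by decide)).2.add, ?_⟩
    · refine (cj_pair (some 15) (some 18) (by decide)).2.add.of_eq ?_
      rw [e]; linear_combination r - (xx (some 15) + xx (some 18)) * two0
    · refine (cj_pair (some 4) (some 18) (by decide)).2.add.of_eq ?_
      rw [e]; linear_combination r - (xx (some 4) + xx (some 18)) * two0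
    · refine (cj_pair (some 6) (some 18) (by decide)).2.add.of_eq ?_
      rw [e]; linear_combination r - (xx (some 6) + xx (some 18)) * two0

open VC (rel xx_none xx_zero) in
theorem vc_swapU : Cj vc (vc + tb) := by
  have h : H15.inM24 976907894520423640927997288916428832 = true := by decide +kernel
  have a := H15.permOf_apply (H15.okP_of_inM24 h)
  obtain ⟨γ, h1, h2, h3⟩ := exists_permU (H15.permOf_mem_M24 h) ((a _).trans (by decide +kernel))
    ((a _).trans (by decide +kernel)) ((a _).trans (by decide +kernel))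
  have e : vc = xx (some 2) + (xx (some 3) + xx (some 4) + bb) := by rw [vc, map_add, mk_pp (some 3)]; rfl
  have r := rel (m := 5279) (a := some 0) (b := some 1) (c := some 2) (d := some 3) (e := some 4)
    (f := some 7) (g := some 10) (k := some 12) (by decide +kernel) (by decide +kernel)
  rw [xx_zero, xx_one] at r
  refine ⟨γ, h1, ?_⟩
  have a2 := (a (some 2)).trans (b := _) (c := some 10) (by decide +kernel)
  have a3 := (a (some 3)).trans (b := _) (c := some 7) (by decide +kernel)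
  have a4 := (a (some 4)).trans (b := _) (c := some 12) (by decide +kernel)
  rw [e, smul_add, smul_add, smul_add, h2, h3, h3, h3, a2, a3, a4]
  linear_combination r - (tb + xx (some 2) + xx (some 3) + xx (some 4)) * two0

open Rho in
theorem exists_sevenU : ∃ σ : C2, UU σ ∧ σ • bb = bb ∧
    ∀ c, be tb c = 0 → be bb c = 0 → ∀ i, ∑ k ∈ Finset.range 7, be ((σ ^ k) • xx i) c = 0 := by
  obtain ⟨π, hπ, p1, p2, p3, p4⟩ := exists_p7
  have e : ∀ i, permHom ⟨π, hπ⟩ • pp none i = pp none (π i) := fun i => Subtype.ext (funext fun k => by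
    obtain ⟨k, rfl⟩ := π.surjective k
    rw [permHom_smul_apply ⟨π, hπ⟩, pp_apply, pp_apply, if_congr (π.apply_eq_iff_eq (x := k) (y := i)) rfl rfl,
      if_congr (show π k = none ↔ k = none by rw [← π.apply_eq_iff_eq (x := k), p1]) rfl rfl])
  obtain ⟨σ, su, s⟩ : ∃ σ : C2, UU σ ∧ ∀ i, σ • xx i = xx (π i) :=
    ⟨⟨permHom ⟨π, hπ⟩, by rw [MulAction.mem_stabilizer_iff, U_eq, e, p2]⟩, by rw [UU, X_eq, e, p3], fun i => by
      rw [xx, smul_mk _ (pp_pp _ _)]; exact congrArg mk (e i)⟩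
  have sk : ∀ k i, (σ ^ k) • xx i = xx (π^[k] i) := fun k => by
    induction k with
    | zero => simp
    | succ k ih => intro i; rw [pow_succ, mul_smul, s, ih, Function.iterate_succ_apply]
  refine ⟨σ, su, by rw [← xx_none, s, p1], fun c h1 h2 i => ?_⟩
  obtain ⟨d, hd, p, hp, h⟩ := p4 i
  have h3 : be (xx p) c = 0 := by
    rcases hp with e | e | e <;> rw [e]
    · exact xx_none ▸ h2
    · rw [xx_zero, map_zero, LinearMap.zero_apply]
    · exact xx_one ▸ h1
  have h4 : ∑ j ∈ d, be (xx j) c = 0 := by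
    rw [← LinearMap.sum_apply, ← map_sum, rel hd, map_zero, LinearMap.zero_apply]
  have h5 : ∀ g : GolayPt → ZMod 2, ∑ k ∈ Finset.range 7, g (π^[k] i) = ∑ j ∈ d, g j + g p := fun g =>
    calc _ = ∑ j, (∑ k ∈ Finset.range 7, if j = π^[k] i then (1 : ZMod 2) else 0) * g j := by
          simp only [Finset.sum_mul]
          rw [Finset.sum_comm]
          simp
      _ = _ := by simp [h, add_mul, Finset.sum_add_distrib]
  simp only [sk]
  rw [h5 fun j => be (xx j) c, h3, h4, add_zero]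

open Rho in
/-- an element of the frame space fixed modulo `bb` by the stabiliser of `tb` and `bb` -/
theorem fixedU {w : V} (hw : EE w) (h : ∀ σ : C2, UU σ → σ • bb = bb → σ • w + w = 0 ∨ σ • w + w = bb) :
    w = 0 ∨ w = tb ∨ w = bb ∨ w = tb + bb := by
  obtain ⟨σ, h1, h2, h3⟩ := exists_sevenU
  refine mem_two fun c ct cb => ?_
  have e : EE (∑ k ∈ Finset.range 7, (σ ^ k)⁻¹ • c) := fun i => by
    rw [map_sum, ← h3 c ct cb i]
    exact Finset.sum_congr rfl fun k _ => (be_smul_left _ _ _).symm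
  have f : ∀ k, be ((σ ^ k)⁻¹ • c) w = be c w := fun k => by
    rw [be_smul_left, inv_inv]
    have := h (σ ^ k) (h1.pow k)
      (MulAction.mem_stabilizer_iff.1 (pow_mem (MulAction.mem_stabilizer_iff.2 h2) k))
    have g : be c ((σ ^ k) • w + w) = 0 := by
      rcases this with g | g
      · rw [g, map_zero]
      · rw [g, be_comm, cb]
    rw [be_add_right] at g
    exact CharTwo.add_eq_zero.1 g
  have := e.be hw
  rw [map_sum, LinearMap.sum_apply] at this
  simp only [f, Finset.sum_const, Finset.card_range] at this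
  revert this
  generalize be c w = s
  revert s
  decide

theorem rhoU (κ : V →+ V) (hq : ∀ a, qq (κ a) = qq a) (hb : κ bb = bb)
    (hx : ∀ i, Pt i → κ (xx i) = xx i ∨ κ (xx i) = xx i + bb)
    (hr : ∀ r : C2, Eps r → r • tb = tb → ∀ a, κ (r • a) = r • κ a)
    (hs : ∀ σ : C2, UU σ → σ • bb = bb → ∃ r : C2, Eps r ∧ ∀ a, σ • κ a = κ (r • σ • a)) :
    ∃ ε : C2, Eps ε ∧ ((∀ a, κ a = ε • a) ∨ ∀ a, κ a = ε • sg bb tb a) := by
  classical
  let c : Finset GolayPt := Finset.univ.filter fun i => κ (xx i) ≠ xx i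
  have mc : ∀ i, i ∈ c ↔ κ (xx i) ≠ xx i := fun i => by simp [c]
  have c1 : none ∉ c := by rw [mc, Rho.xx_none, hb]; simp
  have c2 : some 0 ∉ c := by rw [mc, Rho.xx_zero, map_zero]; simp
  have kx : ∀ i, κ (xx i) = if i ∈ c then xx i + bb else xx i := fun i => by
    split_ifs with m
    · exact (hx i ⟨fun e => c1 (e ▸ m), fun e => c2 (e ▸ m)⟩).resolve_left ((mc i).1 m)
    · exact not_not.1 fun e => m ((mc i).2 e)
  have hc : c ∈ code := mem_code_of_even fun d hd => by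
    have e := congrArg κ (Rho.rel hd)
    have f : ∀ i, κ (xx i) = xx i + if i ∈ c then bb else 0 := fun i => by rw [kx]; split_ifs <;> simp
    rw [map_sum, map_zero] at e
    simp only [f, Finset.sum_add_distrib, Rho.rel hd, zero_add, Finset.sum_ite_mem, Finset.sum_const] at e
    by_contra n
    obtain ⟨k, hk⟩ : Odd (d ∩ c).card := Nat.not_even_iff_odd.1 fun g => n g.two_dvd
    rw [hk, add_nsmul, mul_nsmul, two_nsmul, add_self, nsmul_zero, zero_add, one_nsmul] at e
    exact Rho.bb_ne e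
  obtain ⟨ε, e1, e2⟩ := Rho.exists_eps hc c1 c2
  have ee : ∀ a : V, ε • ε • a = a := fun a => by rw [← mul_smul, e1.sq, one_smul]
  have cm : ∀ r : C2, Eps r → ∀ a : V, ε • r • a = r • ε • a := fun r h a => by
    have : ε * r = r * ε := by
      rw [eq_inv_of_mul_eq_one_left (e1.mul h).sq, mul_inv_rev, ← eq_inv_of_mul_eq_one_left e1.sq,
        ← eq_inv_of_mul_eq_one_left h.sq]
    rw [← mul_smul, this, mul_smul]
  obtain ⟨w, hw, hk⟩ := Rho.is_sg ((DistribSMul.toAddMonoidHom V ε).comp κ) (fun a => (qq_smul ε _).trans (hq a))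
    (fun i => by change ε • κ (xx i) = _; rw [kx, ← e2, ee])
    (fun r h1 h2 a => by change ε • κ (r • a) = r • ε • κ a; rw [hr r h1 h2, cm r h1])
  replace hk : ∀ a, κ a = ε • sg bb w a := fun a => by rw [← hk]; exact (ee _).symm
  have := fixedU hw fun σ s1 s2 => by
    obtain ⟨r, r1, r2⟩ := hs σ s1 s2
    have ri : Eps r⁻¹ := epsGroup.inv_mem r1
    have r3 : ∀ a, sg bb w (r • a) = r • sg bb w a := fun a => by
      rw [smul_sg, r1.bb]
      rcases Rho.EE.eps hw r1 with e | e <;> rw [e]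
      rw [Rho.sg_bb]
    refine Rho.key (ζ := (ε * r)⁻¹ * (σ * ε * σ⁻¹)) (by rw [be_add_right, ← s2, be_smul, s2, Rho.z2_add])
      fun a ha => ?_
    have := r2 (σ⁻¹ • a)
    have si : σ⁻¹ • bb = bb := inv_smul_eq_iff.2 s2.symm
    rw [hk, hk, smul_inv_smul, r3, sg, sg, be_comm a bb, ha, be_smul_left σ⁻¹, inv_inv, s2, be_comm a bb, ha, zero_smul,
      add_zero, add_zero, be_smul_left σ⁻¹, inv_inv, smul_add, smul_add, smul_z2, smul_z2, e1.bb, s2] at this
    rw [mul_smul, inv_smul_eq_iff, mul_smul, mul_smul, mul_smul, eq_sub_of_add_eq this]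
    simp only [smul_add, smul_z2, e1.bb, r1.bb, be_add_right, add_smul]
    linear_combination (-(be a (σ • w) • bb)) * two0
  refine ⟨ε, e1, ?_⟩
  have z : ∀ a, sg bb 0 a = a := fun a => by simp [sg]
  rcases this with e | e | e | e
  · exact Or.inl fun a => by rw [hk, e, z]
  · exact Or.inr fun a => by rw [hk, e]
  · exact Or.inl fun a => by rw [hk, e, (congrArg (sg bb · a) (zero_add bb)).symm.trans ((Rho.sg_bb 0 a).trans (z a))]
  · exact Or.inr fun a => by rw [hk, e, Rho.sg_bb]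

theorem genU {H : Subgroup C2} (hS : ∀ γ : C2, UU γ → γ ∈ H) {ρ : C2} (hρ : ρ ∈ H) (h : Om (ρ • tb)) :
    H = ⊤ := by
  have s1 : ∀ a, Om a → ∃ η ∈ H, η • tb = a := fun a ha => by
    obtain ⟨γ, h1, e1⟩ := om_trans ha
    obtain ⟨δ, h2, e2⟩ := om_trans h
    exact ⟨γ⁻¹ * δ * ρ, H.mul_mem (H.mul_mem (H.inv_mem (hS _ h1)) (hS _ h2)) hρ, by
      rw [mul_smul, mul_smul, e2, ← e1, inv_smul_smul]⟩
  have s2 : ∀ a, TA a → be a tb = 0 → ∃ η ∈ H, η • tb = a := fun a ha e => by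
    by_cases f : a = tb
    exacts [⟨1, H.one_mem, (one_smul _ _).trans f.symm⟩, s1 a ⟨ha, e, f⟩]
  have s3 : ∀ a, TA a → ∃ η ∈ H, η • tb = a := fun a ha => by
    by_cases f : ∃ x, Om x ∧ be a x = 0
    · obtain ⟨x, hx, e⟩ := f
      obtain ⟨η, h1, rfl⟩ := s1 x hx
      obtain ⟨δ, h2, e2⟩ := s2 (η⁻¹ • a) (ha.smul _) (by rw [be_smul_left, inv_inv, e])
      exact ⟨η * δ, H.mul_mem h1 h2, by rw [mul_smul, e2, smul_inv_smul]⟩
    · have o : ∀ x, Om x → be a x = 1 := fun x hx => (z2 _).resolve_left fun e => f ⟨x, hx, e⟩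
      exact s2 a ha (VB.span20 (K := (be a).toAddMonoidHom.ker) (fun ε _ h2 => (be_add_right _ _ _).trans (by
        rw [o _ (VB.om_oo.smul h2), o _ VB.om_oo]; rfl)) (be_self _) be_tb_bb)
  have s4 : ∀ γ, γ ∉ H → ∃ η ∈ H, ((η⁻¹ * γ : C2) : Co0) • vX = vU - vX := fun γ n => by
    obtain ⟨η, h1, e⟩ := s3 _ (ta_tb.smul γ)
    refine ⟨η, h1, (fix_tb_iff.1 (by rw [mul_smul, ← e, inv_smul_smul])).resolve_left fun f => n ?_⟩
    simpa using H.mul_mem h1 (hS _ f)
  have s5 : ∀ x y, x ∉ H → y ∉ H → x⁻¹ * y ∈ H := fun x y hx hy => by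
    obtain ⟨η, h1, e⟩ := s4 x⁻¹ fun m => hx (inv_mem_iff.1 m)
    obtain ⟨η', h2, e'⟩ := s4 y⁻¹ fun m => hy (inv_mem_iff.1 m)
    have := hS ((η⁻¹ * x⁻¹) * (η'⁻¹ * y⁻¹)⁻¹) (by
      have k : ∀ δ : C2, (δ : Co0) • vX = vU - vX → (δ : Co0) • (vU - vX) = vX := fun δ f => by
        rw [smul_sub, f, MulAction.mem_stabilizer_iff.1 δ.2, sub_sub_cancel]
      rw [UU, coe_mul, mul_smul, show (((η'⁻¹ * y⁻¹)⁻¹ : C2) : Co0) • vX = vU - vX from
        inv_smul_eq_iff.2 (k _ e').symm, k _ e])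
    simpa [mul_assoc] using H.mul_mem (H.mul_mem h1 this) (inv_mem h2)
  have : H.Normal := ⟨fun n hn g => by
    by_cases m : g ∈ H
    · exact H.mul_mem (H.mul_mem m hn) (inv_mem m)
    · simpa [mul_assoc] using s5 (g * n)⁻¹ g⁻¹ (fun f => m ((H.mul_mem_cancel_right hn).1 (inv_mem_iff.1 f)))
        fun f => m (inv_mem_iff.1 f)⟩
  refine (isSimple_Co2.eq_bot_or_eq_top_of_normal H this).resolve_left fun e => h.2.2 ?_
  rw [show ρ = 1 from mem_bot.1 (e ▸ hρ), one_smul]

/-- an involution with a small commutator space is trivial -/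
theorem small {γ : C2} (h2 : γ * γ = 1) {x y p : V}
    (h : ∀ c, be c x = 0 → be c y = 0 → γ • c + c = 0 ∨ γ • c + c = p) : γ = 1 := by
  by_contra n
  let A : V → V → AddSubgroup V := fun x y =>
    { carrier := {c | ∃ a, be a x = 0 ∧ be a y = 0 ∧ γ • a + a = c}
      zero_mem' := ⟨0, by simp, by simp, by simp⟩
      add_mem' := by
        rintro _ _ ⟨a, h1, h2, rfl⟩ ⟨c, h3, h4, rfl⟩
        exact ⟨a + c, by rw [be_add_left, h1, h3, add_zero], by rw [be_add_left, h2, h4, add_zero],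
          by rw [smul_add]; abel⟩
      neg_mem' := fun {a} h => by rwa [neg_eq_of_add_eq_zero_left (add_self a)] }
  have k : ∀ x y, Nat.card (A x 0) ≤ 2 * Nat.card (A x y) := fun x y => card_le_two (by
    rintro _ ⟨a, h1, -, rfl⟩ _ ⟨c, h3, -, rfl⟩
    rcases z2 (be a y) with e | e
    · exact Or.inl ⟨a, h1, e, rfl⟩
    rcases z2 (be c y) with f | f
    · exact Or.inr (Or.inl ⟨c, h3, f, rfl⟩)
    · exact Or.inr (Or.inr ⟨a + c, by rw [be_add_left, h1, h3, add_zero], by rw [be_add_left, e, f]; rfl,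
        by rw [smul_add]; abel⟩))
  have k1 : Nat.card (rg γ) ≤ Nat.card (A 0 0) :=
    AddSubgroup.card_le_of_le fun _ ⟨a, e⟩ => ⟨a, map_zero _, map_zero _, e⟩
  have k2 : Nat.card (A 0 x) ≤ Nat.card (A x 0) := AddSubgroup.card_le_of_le fun _ ⟨a, h1, h2, e⟩ => ⟨a, h2, h1, e⟩
  have k3 : Nat.card (A x y) ≤ 2 := by
    classical
    have := Nat.card_le_card_of_injective (fun c : A x y => (⟨c, by
      obtain ⟨_, a, h1, h2, rfl⟩ := c
      simpa using h a h1 h2⟩ : ({0, p} : Finset V))) fun c d e => Subtype.ext (congrArg Subtype.val e :)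
    rw [Nat.card_eq_fintype_card (α := ({0, p} : Finset V)), Fintype.card_coe] at this
    exact this.trans Finset.card_le_two
  have := inv32 h2 n
  have := k 0 x
  have := k x y
  omega

theorem no_off16 {A : Subgroup C2} (hA : ∀ γ ∈ A, Eps γ) {K : AddSubgroup V} (hK : ∀ γ ∈ A, ∀ a ∈ K, γ • a = a)
    (hc : 2 ^ 20 ≤ Nat.card K * Nat.card A) : A = ⊥ := by
  by_contra hn
  obtain ⟨⟨ε, hε⟩, h1⟩ := (A.ne_bot_iff_exists_ne_one).1 hn
  have m : ∀ γ ∈ A, ∀ c, γ • c + c ∈ perp K := fun γ hγ c x hx => VB.be_comm_fix (hK γ hγ x hx) c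
  have k : ∀ γ ∈ A, (∀ i, be (xx i) (γ • VB.oo + VB.oo) = 0) → γ = 1 := fun γ hγ h => VB.eps_one (hA γ hγ) fun i =>
    (VB.eps_or (hA γ hγ) i).resolve_right fun e => by
      have := h i
      rw [be_add_right, ← be_smul γ, e, ← mul_smul, (hA γ hγ).sq, one_smul, be_add_left, be_comm bb, VB.be_oo_bb,
        add_right_comm, CharTwo.add_self_eq_zero] at this
      exact absurd this (by decide)
  let B : AddSubgroup V :=
    { carrier := {c | ∃ a, be bb a = 0 ∧ ε • a + a = c}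
      zero_mem' := ⟨0, by simp, by simp⟩
      add_mem' := by
        rintro _ _ ⟨a, h1, rfl⟩ ⟨c, h3, rfl⟩
        exact ⟨a + c, by rw [be_add_right, h1, h3, add_zero], by rw [smul_add]; abel⟩
      neg_mem' := fun {a} h => by rwa [neg_eq_of_add_eq_zero_left (add_self a)] }
  have k1 := card_le_two (A := B) (B := rg ε) (by
    rintro _ ⟨a, rfl⟩ _ ⟨c, rfl⟩
    rcases z2 (be bb a) with e | e
    · exact Or.inl ⟨a, e, rfl⟩
    rcases z2 (be bb c) with f | f
    · exact Or.inr (Or.inl ⟨c, f, rfl⟩)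
    · exact Or.inr (Or.inr ⟨a + c, by rw [be_add_right, e, f]; rfl, by
        change _ = ε • a + a + (ε • c + c)
        rw [smul_add]; abel⟩))
  have k2 := inv32 (hA ε hε).sq fun e => h1 (Subtype.ext e)
  let f : A × B → perp K := fun x => ⟨(x.1 : C2) • VB.oo + VB.oo + x.2, add_mem (m _ x.1.2 _) (by
    obtain ⟨a, -, e⟩ := x.2.2
    exact e ▸ m ε hε a)⟩
  have fi : Function.Injective f := fun ⟨γ, b⟩ ⟨δ, c⟩ e => by
    have e1 : (γ : C2) • VB.oo + VB.oo + b = (δ : C2) • VB.oo + VB.oo + c := congrArg Subtype.val e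
    have eb : ∀ b : B, ∀ i, be (xx i) b = 0 := fun ⟨_, a, h1, h2⟩ i => h2 ▸ Rho.ee_eps (hA ε hε) h1 i
    have : δ⁻¹ * γ = 1 := Subtype.ext (k _ (δ⁻¹ * γ).2 fun i => by
      have e2 : (γ : C2) • VB.oo = (δ : C2) • VB.oo + ((b + c : B) : V) := by
        rw [AddSubgroup.coe_add]; linear_combination e1 - (b : V) * two0
      rw [coe_mul, mul_smul, e2, coe_inv, smul_add, inv_smul_smul, add_right_comm, add_self, zero_add, be_comm,
        be_smul_left, inv_inv, be_comm]
      rcases eps_xx (hA _ δ.2) i with r | r <;> rw [r]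
      · exact eb _ i
      · rw [be_add_left, eb, zero_add, ← Rho.xx_none, eb])
    obtain rfl := inv_mul_eq_one.1 this
    exact Prod.ext rfl (Subtype.ext (add_left_cancel e1))
  have l := Nat.card_le_card_of_injective f fi
  rw [Nat.card_prod] at l
  have := card_perp K
  have : 0 < Nat.card K := Nat.card_pos
  nlinarith

/-- a nonzero subgroup invariant under `U6(2)` contains `tb` -/
theorem invU {K : AddSubgroup V} (h : ∀ γ : C2, UU γ → ∀ a ∈ K, γ • a ∈ K) (hn : K ≠ ⊥) : tb ∈ K := by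
  let S : SubMulAction VB.R0 V := ⟨K, fun γ a e => h γ (uu_eps γ.2.1 γ.2.2) a e⟩
  let _ : MulAction VB.R0 S := S.mulAction
  have d : 2 ∣ Nat.card S := by
    obtain ⟨k, -, e⟩ := (Nat.dvd_prime_pow Nat.prime_two).1 (Dvd.intro _ (card_perp K))
    show 2 ∣ Nat.card K
    rw [e]
    exact dvd_pow_self 2 fun f => hn (AddSubgroup.card_eq_one.1 (by rw [e, f, pow_zero]))
  obtain ⟨b, hb, ne⟩ := VB.R0_two.exists_fixed_point_of_prime_dvd_card_of_fixed_point S d (a := ⟨0, K.zero_mem⟩)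
    fun ε => Subtype.ext (smul_zero (ε : C2))
  have m : b.1 ∈ K := b.2
  obtain ⟨γ, h1, h2⟩ := om_transU VB.om_oo
  have k : ∀ c, (∀ ε : C2, ε • tb = tb → ε • c = c) → VB.oo + c ∈ K → tb ∈ K := fun c hc e =>
    VB.span20 (fun ε e1 e2 => by
      have := K.add_mem (h ε (uu_eps e1 e2) _ e) e
      rwa [smul_add, hc ε e2, add_add_add_comm, add_self, add_zero] at this) (be_self _) be_tb_bb
  rcases fix_R0 (a := b.1) fun ε h1 h2 => congrArg Subtype.val (hb ⟨ε, h1, h2⟩) with f | f | f | f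
  · exact absurd (Subtype.ext f.symm) ne
  · exact f ▸ m
  · refine k tb (fun _ e => e) ?_
    have := h _ h1.inv _ (f ▸ m)
    rwa [show bb = γ • (VB.oo + tb) by rw [smul_add, h2, h1.tb, add_right_comm, add_self, zero_add],
      inv_smul_smul] at this
  · refine k 0 (fun _ _ => smul_zero _) ?_
    have := h _ h1.inv _ (f ▸ m)
    rwa [← h2, inv_smul_smul, ← add_zero VB.oo] at this

/-- the vectors fixed by `U6(2)` -/
theorem fixU {a : V} (h : ∀ γ : C2, UU γ → γ • a = a) : a = 0 ∨ a = tb := by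
  obtain ⟨γ, h1, h2⟩ := om_transU VB.om_oo
  have n : γ⁻¹ • bb ≠ bb := fun e => by
    have := VB.be_oo_bb
    rw [← inv_smul_smul γ VB.oo, h2, smul_add, h1.inv.tb, e, be_add_left, be_tb_bb, be_self] at this
    exact absurd this (by decide)
  rcases fix_R0 fun ε e1 e2 => h ε (uu_eps e1 e2) with f | f | f | f
  exacts [Or.inl f, Or.inr f, (n (f ▸ h _ h1.inv)).elim, (n (by
    have := h _ h1.inv
    rwa [f, smul_add, h1.inv.tb, add_right_inj] at this)).elim]

/-- a 2-group fixing `tb` fixes a member of `Om` -/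
theorem fix_om {N : Type*} [Group N] (h2 : IsPGroup 2 N) (f : N →* C2) (h : ∀ n, f n • tb = tb) :
    ∃ a, Om a ∧ ∀ n, f n • a = a := by
  let _ := MulAction.compHom V f
  let S : SubMulAction N V := ⟨{a | Om a}, fun γ a e => e.smul (h γ)⟩
  obtain ⟨a, e⟩ := h2.nonempty_fixed_point_of_prime_not_dvd_card S om_odd.not_two_dvd_nat
  exact ⟨a, a.2, fun n => congrArg Subtype.val (e n)⟩

/-- every hyperplane contains a short class -/
theorem hyperTA (a : V) : ∃ x, TA x ∧ be x a = 0 := by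
  by_contra! n
  have o : ∀ x, TA x → be x a = 1 := fun x hx => (z2 _).resolve_left (n x hx)
  let K : AddSubgroup V :=
    { carrier := {c | ∀ γ : C2, be (γ • c) a = 0}
      zero_mem' := fun γ => by simp
      add_mem' := fun h1 h2 γ => by rw [smul_add, be_add_left, h1, h2, add_zero]
      neg_mem' := fun {a} h => by rwa [neg_eq_of_add_eq_zero_left (add_self a)] }
  rcases irr (K := K) fun γ c hc δ => by rw [← mul_smul]; exact hc _ with e | e
  · refine tb_bb.ne (AddSubgroup.mem_bot.1 (e.le fun γ => ?_))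
    have := o _ (om_bb.1.smul γ)
    rwa [smul_add, be_add_left, o _ (ta_tb.smul γ), add_eq_left] at this
  · exact n _ (ta_tb.smul 1) ((e ▸ AddSubgroup.mem_top tb : tb ∈ K) 1)

theorem eqns_VU : True := by
  have := @UU.eq_1
  have := @Cj.eq_1
  trivial

end H94.BE
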