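import Cfsg.Agent.Lib.B2E.EB
import Cfsg.Agent.Lib.B2E.VU

/-!
# Control of the conjugates of `t` in the centraliser of `τ` over the odd normal subgroup
-/

set_option autoImplicit false

namespace H94.BE

open Cfsg H16 H95 H48.BR Subgroup H75.WC H18.BS

variable {G B : Type*} [Group G] [Group B] [Finite G]

namespace EC

omit [Finite G] in
theorem np (T : St G) {R : Subgroup G} {π : G → V} (L : Lf T.τ R π) {x y z : G} (hx : x ∈ R) (hy : y ∈ R)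
    (hz : z ∈ R) (h0 : π x + π y + π z ≠ 0)
    (h : ∀ c ∈ ({π x, π y, π z, π x + π y, π x + π z, π y + π z} : Set V),
      c ≠ 0 ∧ ∀ w ∈ R, π w = c → Sg T.t T.τ w) : False := by
  have k : ∀ w ∈ R, π w ∈ ({π x, π y, π z, π x + π y, π x + π z, π y + π z} : Set V) →
      w ∈ T.P ∧ Om (T.π w + tb) := fun w hw m => by
    have p := T.col w ((h _ m).2 w hw rfl) ((h _ m).2 _ (mul_mem hw L.mem) (L.mulτ hw))
    exact ⟨p, ((T.sig w p).1 ((h _ m).2 w hw rfl)).resolve_left fun f => (h _ m).1 (by rw [f, L.τ0])⟩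
  have k1 := k x hx (by simp)
  have k2 := k y hy (by simp)
  have k3 := k z hz (by simp)
  have := nopure k1.2 k2.2 k3.2 (T.lf.add _ k1.1 _ k2.1 ▸ (k _ (mul_mem hx hy) (by simp [L.add _ hx _ hy])).2)
    (T.lf.add _ k1.1 _ k3.1 ▸ (k _ (mul_mem hx hz) (by simp [L.add _ hx _ hz])).2)
    (T.lf.add _ k2.1 _ k3.1 ▸ (k _ (mul_mem hy hz) (by simp [L.add _ hy _ hz])).2)
  rw [← T.lf.add _ k1.1 _ k2.1, ← T.lf.add _ (mul_mem k1.1 k2.1) _ k3.1,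
    T.lf.ker _ (mul_mem (mul_mem k1.1 k2.1) k3.1), ← L.ker _ (mul_mem (mul_mem hx hy) hz),
    L.add _ (mul_mem hx hy) _ hz, L.add _ hx _ hy] at this
  exact h0 this

theorem qq_rg (γ : C2) (b : V) : qq (γ • b + b) = be b (γ • b) := by
  rw [qq_add, qq_smul, CharTwo.add_self_eq_zero, zero_add, be_comm]

end EC

/-- E.c, abstract part -/
theorem f1' (T : St2 G) (hT : T.Full) {R : Subgroup G} {π : G → V} (L : Lf T.τ R π) {γ : C2} (g1 : γ ≠ 1)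
    (g2 : γ * γ = 1) (a : Act R π T.t γ) (onto : ∀ b, be b (γ • b) = 0 → ∃ y ∈ R, π y = b) : False := by
  have ti : T.t⁻¹ = T.t := inv_eq_of_mul_eq_one_right T.tt
  have iso : ∀ a ∈ rg γ, ∀ b ∈ rg γ, qq (a + b) = qq a + qq b := by
    rintro _ ⟨a, rfl⟩ _ ⟨b, rfl⟩
    change qq (γ • a + a + (γ • b + b)) = qq (γ • a + a) + qq (γ • b + b)
    rw [qq_add, be_add_left, be_add_right, be_add_right, be_smul, be_smul_left, inv_eq_of_mul_eq_one_right g2]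
    generalize be a b = r, be a (γ • b) = s
    rw [add_eq_left]; revert r s; decide
  have onto' : ∀ a ∈ rg γ, ∃ y ∈ R, π y = a := by
    rintro _ ⟨a, rfl⟩
    refine onto _ ?_
    change be (γ • a + a) (γ • (γ • a + a)) = 0
    rw [smul_add, ← mul_smul, g2, one_smul, add_comm a, be_self]
  -- lifts of the singular commutators
  have lift : ∀ e ∈ R, π e ∈ rg γ → qq (π e) = 0 → IsConj T.t (e * T.t) := by
    rintro e he ⟨b, hb⟩ z
    have hb : γ • b + b = π e := hb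
    obtain ⟨y, hy, rfl⟩ := onto b (by rw [← EC.qq_rg, hb, z])
    obtain ⟨a1, a2⟩ := a _ (inv_mem hy)
    obtain ⟨p, -, r⟩ := T.conjQ T.tQ (T.πt ▸ tb_ne)
    rcases (L.eq_iff (mul_mem hy a1) he).1 (by
      rw [L.add _ hy _ a1, a2, L.inv hy, add_comm]; exact hb) with rfl | rfl
    · exact isConj_iff.2 ⟨y, by group⟩
    · refine isConj_iff.2 ⟨y * p, ?_⟩
      calc _ = y * (p * T.t * p⁻¹) * y⁻¹ := by group
        _ = _ := by
          rw [r, mul_assoc _ T.τ, ← T.Pτ T.tP, ← mul_assoc y, mul_assoc _ T.τ, ← L.cent (inv_mem hy)]; group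
  have sq : ∀ e ∈ R, π e ∈ rg γ → qq (π e) = 0 → e * T.t * (e * T.t) = 1 := fun e he r z => by
    obtain ⟨g, f⟩ := isConj_iff.1 (lift e he r z)
    rw [← f, conj_mul, T.tt, mul_one, mul_inv_cancel]
  have cm : ∀ e ∈ R, π e ∈ rg γ → qq (π e) = 0 → e * T.t = T.t * e := fun e he r z => by
    rw [← inv_eq_of_mul_eq_one_right (sq e he r z), mul_inv_rev, ti,
      inv_eq_of_mul_eq_one_right ((L.sq_iff he).2 z)]
  let A : AddSubgroup V :=
    { carrier := {a | a ∈ rg γ ∧ qq a = 0}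
      zero_mem' := ⟨zero_mem _, qq_zero⟩
      add_mem' := fun h1 h2 => ⟨add_mem h1.1 h2.1, by rw [iso _ h1.1 _ h2.1, h1.2, h2.2, add_zero]⟩
      neg_mem' := fun {a} h => by rwa [neg_eq_of_add_eq_zero_left (add_self a)] }
  let C := A ⊓ L.img (R ⊓ T.M) inf_le_left
  have n1 := inv32 g2 g1
  have n2 := card_le_two (A := A) (B := rg γ) fun a ha b hb => by
    rcases z2 (qq a) with z | z
    · exact Or.inl ⟨ha, z⟩
    rcases z2 (qq b) with w | w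
    · exact Or.inr (Or.inl ⟨hb, w⟩)
    exact Or.inr (Or.inr ⟨add_mem ha hb, by rw [iso a ha b hb, z, w]; rfl⟩)
  have n3 := card_le_two (A := C) (B := A) fun a ha b hb => by
    obtain ⟨y, hy, rfl⟩ := onto' a ha.1
    obtain ⟨z, hz, rfl⟩ := onto' b hb.1
    exact (T.idx y z (cm y hy ha.1 ha.2) (cm z hz hb.1 hb.2)).imp (fun k => ⟨ha, y, ⟨hy, k⟩, rfl⟩)
      (Or.imp (fun k => ⟨hb, z, ⟨hz, k⟩, rfl⟩) fun k => ⟨add_mem ha hb, _, ⟨mul_mem hy hz, k⟩, L.add _ hy _ hz⟩)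
  have key : ∀ b ∈ C, b ≠ 0 → b ≠ 0 ∧ ∀ y ∈ R, π y = b → Sg T.t T.τ y := by
    rintro _ ⟨hb, z, hz, rfl⟩ b0
    refine ⟨b0, fun y hy f => ?_⟩
    have yM : y ∈ T.M := by
      rcases (L.eq_iff hz.1 hy).1 f.symm with rfl | rfl
      exacts [hz.2, mul_mem hz.2 (T.PM T.lf.mem)]
    rw [← f] at hb b0
    obtain ⟨d, d1, d2, -⟩ := T.cls _ (mul_mem yM (T.PM T.tP)) (sq y hy hb.1 hb.2)
    have ta := F1.ic hT (T.PQ d2) ((lift y hy hb.1 hb.2).trans (isConj_iff.2 ⟨d, rfl⟩))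
    have r : d * (y * T.t) * d⁻¹ = d * y * d⁻¹ * T.t := by rw [← conj_mul, d1, mul_inv_cancel_right]
    rw [r] at d2 ta
    have p := (mul_mem_cancel_right T.tP).1 d2
    rw [T.lf.add _ p _ T.tP, T.πt] at ta
    have := ((T.sig _ p).2 (or_iff_not_imp_left.2 fun n => ⟨ta, by
      rw [be_add_left, T.perp _ p, be_self, add_zero], fun w => ((T.lf.ker _ p).1 (add_eq_right.1 w)).elim
        (fun o => b0 (by rw [conj_eq_one_iff.1 o, L.one])) n⟩)).conj (Commute.inv_left d1).eq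
    simpa [mul_assoc] using this
  obtain ⟨b₁, m₁, b₂, m₂, b₃, m₃, z₁, z₂, z₃, z₄, z₅, z₆, z₇⟩ := three (A := C) (by omega)
  obtain ⟨x, hx, rfl⟩ := onto' b₁ m₁.1.1
  obtain ⟨y, hy, rfl⟩ := onto' b₂ m₂.1.1
  obtain ⟨z, hz, rfl⟩ := onto' b₃ m₃.1.1
  refine EC.np T.toSt L hx hy hz z₇ ?_
  rintro _ (rfl | rfl | rfl | rfl | rfl | rfl)
  exacts [key _ m₁ z₁, key _ m₂ z₂, key _ m₃ z₃, key _ (add_mem m₁ m₂) z₄, key _ (add_mem m₁ m₃) z₅,
    key _ (add_mem m₂ m₃) z₆]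

/-- E.c -/
theorem Ev.f1 [IsSimpleGroup B] (E : Ev G B) {τ x : G} (h0 : τ ∈ NN E.θ) (h1 : τ * τ = 1) (h2 : E.f τ = E.S.τ)
    (hx : x * τ = τ * x) (m : x * E.t * x⁻¹ ∈ NN E.θ) : x ∈ NN E.θ := by
  classical
  have : Finite B := .of_surjective _ E.φ_surj
  have tτ : E.t * τ = τ * E.t := E.comm E.tH h0 (T2.of_sq h1) (by rw [E.ft, h2]; exact E.S.Pτ E.S.tP)
  have uτ : x * E.t * x⁻¹ * τ = τ * (x * E.t * x⁻¹) :=
    Commute.mul_left (Commute.mul_left hx tτ) (Commute.inv_left hx)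
  have uu : x * E.t * x⁻¹ * (x * E.t * x⁻¹) = 1 := by rw [conj_mul, E.tt, mul_one, mul_inv_cancel]
  have ux : x⁻¹ * (x * E.t * x⁻¹) * x = E.t := by group
  generalize hu : x * E.t * x⁻¹ = u at m uτ uu ux
  have uY : E.f u ∈ E.S.Y := E.S.top E.full (by rw [← h2, ← E.mul _ m _ h0, ← E.mul _ h0 _ m, uτ])
  have fu : E.f u * E.f u = 1 := by rw [← E.mul _ m _ m, uu, E.one]
  by_cases q : E.f u ∈ E.S.Q
  · obtain ⟨c, ta, hc⟩ := hyperTA (E.S.π (E.f u))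
    obtain ⟨a, ha, rfl⟩ := E.S.ontoQ c
    obtain ⟨γ, hγ⟩ := ta_trans ta_tb ta
    obtain ⟨k, -, -, k3⟩ := E.full.conj E.S.tQ ha ta.ne (E.S.πt.symm ▸ hγ)
    obtain ⟨k, hk, rfl⟩ := E.surj k
    have c := E.comm (mul_mem (mul_mem hk E.tH) (inv_mem hk)) m (T2.of_sq uu) (by
      rw [E.conj hk E.tH, E.ft, k3]; exact (E.S.lfQ.commute_iff ha q).2 hc)
    refine (mul_mem_cancel_left (inv_mem hk)).1 (E.iso (g := k⁻¹ * x) ?_)
    calc k⁻¹ * x * E.t * (k⁻¹ * x)⁻¹ * E.t = k⁻¹ * (x * E.t * x⁻¹ * (k * E.t * k⁻¹)) * k := by group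
      _ = k⁻¹ * (k * E.t * k⁻¹ * (x * E.t * x⁻¹)) * k := by rw [hu, c]
      _ = _ := by group
  exfalso
  have a := E.S.ψ_act ⟨_, uY⟩
  have g1 : E.S.ψ ⟨_, uY⟩ ≠ 1 := fun e => q (E.S.ψ_ker.1 e)
  have g2 : E.S.ψ ⟨_, uY⟩ * E.S.ψ ⟨_, uY⟩ = 1 := by
    rw [← map_mul, ← map_one E.S.ψ]; exact congrArg _ (Subtype.ext fu)
  generalize E.S.ψ ⟨_, uY⟩ = γ at a g1 g2
  replace a : Act E.S.Q E.S.π (E.f u) γ := a
  obtain ⟨Q, p, mQ, sQ⟩ := E.lift E.S.lfQ.two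
  have QH : ∀ {y}, y ∈ Q → y ∈ NN E.θ := fun hy => ((mQ _).1 hy).1
  have Qf : ∀ {y}, y ∈ Q → E.f y ∈ E.S.Q := fun hy => ((mQ _).1 hy).2.2
  have inj : ∀ {y z}, y ∈ Q → z ∈ Q → E.f y = E.f z → y = z := fun hy hz =>
    E.eq2 (QH hy) (QH hz) (T2.of_mem p hy) (T2.of_mem p hz)
  have τQ : τ ∈ Q := (mQ τ).2 ⟨h0, T2.of_sq h1, h2 ▸ E.S.lfQ.mem⟩
  have xτ : x⁻¹ * τ * x = τ := by rw [mul_assoc, ← hx, inv_mul_cancel_left]
  let D : Subgroup G := Q ⊓ (NN E.θ).comap (MulAut.conj x⁻¹).toMonoidHom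
  have mD : ∀ {y}, y ∈ D ↔ y ∈ Q ∧ x⁻¹ * y * x ∈ NN E.θ := fun {y} => by
    simp only [D, mem_inf, mem_comap, MulEquiv.coe_toMonoidHom, MulAut.conj_apply, inv_inv]
  let F : G → B := fun y => E.f (x⁻¹ * y * x)
  have Fmul : ∀ {y z}, y ∈ D → z ∈ D → F (y * z) = F y * F z := fun {y z} hy hz => by
    simp only [F]
    rw [← E.mul _ (mD.1 hy).2 _ (mD.1 hz).2]
    congr 1; group
  have F1 : F 1 = 1 := by simp only [F]; rw [mul_one, inv_mul_cancel, E.one]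
  have Fτ : F τ = E.S.τ := by simp only [F]; rw [xτ, h2]
  have Finj : ∀ {y z}, y ∈ D → z ∈ D → F y = F z → y = z := fun {y z} hy hz e => by
    have t2 : ∀ {w}, w ∈ D → T2 (x⁻¹ * w * x) := fun hw => by
      simpa only [inv_inv] using (T2.of_mem p (mD.1 hw).1).conj x⁻¹
    have := E.eq2 (mD.1 hy).2 (mD.1 hz).2 (t2 hy) (t2 hz) e
    exact mul_left_cancel (mul_right_cancel this)
  have τD : τ ∈ D := mD.2 ⟨τQ, xτ.symm ▸ h0⟩
  have zD : ∀ s, zp τ s ∈ D ∧ E.f (zp τ s) = zp E.S.τ s ∧ F (zp τ s) = zp E.S.τ s := fun s => by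
    rcases z2 s with rfl | rfl
    · rw [zp_zero, zp_zero]; exact ⟨one_mem _, E.one, F1⟩
    · rw [zp_one, zp_one]; exact ⟨τD, h2, Fτ⟩
  let R : Subgroup B :=
    { carrier := {r | ∃ y ∈ D, F y = r}
      one_mem' := ⟨1, one_mem _, F1⟩
      mul_mem' := by
        rintro _ _ ⟨y, hy, rfl⟩ ⟨z, hz, rfl⟩
        exact ⟨_, mul_mem hy hz, Fmul hy hz⟩
      inv_mem' := by
        rintro _ ⟨y, hy, rfl⟩
        exact ⟨_, inv_mem hy, eq_inv_of_mul_eq_one_left (by rw [← Fmul (inv_mem hy) hy, inv_mul_cancel, F1])⟩ }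
  let π : B → V := fun r => if h : ∃ y ∈ D, F y = r then E.S.π (E.f h.choose) else 0
  have πF : ∀ {y}, y ∈ D → π (F y) = E.S.π (E.f y) := fun {y} hy => by
    have h : ∃ z ∈ D, F z = F y := ⟨y, hy, rfl⟩
    simp only [π]
    rw [dif_pos h, Finj h.choose_spec.1 hy h.choose_spec.2]
  have L : Lf E.S.τ R π :=
    { ne := E.S.lfQ.ne
      sq := E.S.lfQ.sq
      mem := ⟨τ, τD, Fτ⟩
      add := by
        rintro _ ⟨y, hy, rfl⟩ _ ⟨z, hz, rfl⟩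
        rw [← Fmul hy hz, πF (mul_mem hy hz), πF hy, πF hz, E.mul _ (QH (mD.1 hy).1) _ (QH (mD.1 hz).1),
          E.S.lfQ.add _ (Qf (mD.1 hy).1) _ (Qf (mD.1 hz).1)]
      ker := by
        rintro _ ⟨y, hy, rfl⟩
        rw [πF hy, E.S.lfQ.ker _ (Qf (mD.1 hy).1)]
        refine or_congr ⟨fun e => ?_, fun e => ?_⟩ ⟨fun e => ?_, fun e => ?_⟩
        · rw [inj (mD.1 hy).1 (one_mem _) (e.trans E.one.symm), F1]
        · rw [Finj hy (one_mem _) (e.trans F1.symm), E.one]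
        · rw [inj (mD.1 hy).1 τQ (e.trans h2.symm), Fτ]
        · rw [Finj hy τD (e.trans Fτ.symm), h2]
      comm := by
        rintro _ ⟨y, hy, rfl⟩ _ ⟨z, hz, rfl⟩
        have y1 := (mD.1 hy).1
        have z1 := (mD.1 hz).1
        obtain ⟨s1, s2, s3⟩ := zD (be (E.S.π (E.f y)) (E.S.π (E.f z)))
        rw [πF hy, πF hz, ← s3, ← Fmul hy hz, ← Fmul hz hy, ← Fmul (mul_mem hz hy) s1]
        refine congrArg F (inj (mul_mem y1 z1) (mul_mem (mul_mem z1 y1) (mD.1 s1).1) ?_)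
        rw [E.mul _ (QH (mul_mem z1 y1)) _ (QH (mD.1 s1).1), E.mul _ (QH y1) _ (QH z1),
          E.mul _ (QH z1) _ (QH y1), s2]
        exact E.S.lfQ.comm _ (Qf y1) _ (Qf z1)
      sqr := by
        rintro _ ⟨y, hy, rfl⟩
        have y1 := (mD.1 hy).1
        obtain ⟨s1, s2, s3⟩ := zD (qq (E.S.π (E.f y)))
        rw [πF hy, ← s3, ← Fmul hy hy]
        refine congrArg F (inj (mul_mem y1 y1) (mD.1 s1).1 ?_)
        rw [E.mul _ (QH y1) _ (QH y1), s2]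
        exact E.S.lfQ.sqr _ (Qf y1) }
  refine f1' E.S E.full L g1 g2 ?_ fun b hb => ?_
  · rintro _ ⟨y, hy, rfl⟩
    have y1 := (mD.1 hy).1
    have e : x⁻¹ * (u * y * u⁻¹) * x = E.t * (x⁻¹ * y * x) * E.t⁻¹ := by rw [← ux]; group
    have d : u * y * u⁻¹ ∈ D := mD.2 ⟨(mQ _).2 ⟨mul_mem (mul_mem m (QH y1)) (inv_mem m),
      (T2.of_mem p y1).conj u, by rw [E.conj m (QH y1)]; exact (a _ (Qf y1)).1⟩, by
        rw [e]; exact mul_mem (mul_mem E.tH (mD.1 hy).2) (inv_mem E.tH)⟩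
    have f : E.S.t * F y * E.S.t⁻¹ = F (u * y * u⁻¹) := by
      simp only [F]
      rw [e, E.conj E.tH (mD.1 hy).2, E.ft]
    rw [f, πF d, πF hy, E.conj m (QH y1)]
    exact ⟨⟨_, d, rfl⟩, (a _ (Qf y1)).2⟩
  · obtain ⟨y, hy, rfl⟩ := E.S.ontoQ b
    obtain ⟨y, y1, rfl⟩ := sQ y hy
    have d : y ∈ D := by
      refine mD.2 ⟨y1, ?_⟩
      obtain ⟨a1, a2⟩ := a _ (inv_mem hy)
      have s := (E.S.lfQ.sq_iff (mul_mem hy a1)).2 (by
        rw [E.S.lfQ.add _ hy _ a1, a2, E.S.lfQ.inv hy, add_comm, EC.qq_rg, hb])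
      have fi : (E.f u)⁻¹ = E.f u := inv_eq_of_mul_eq_one_right fu
      have c := E.comm (mul_mem (mul_mem (QH y1) m) (inv_mem (QH y1))) m (T2.of_sq uu) (by
        rw [E.conj (QH y1) m]
        have s2 : E.f y * E.f u * (E.f y)⁻¹ * (E.f y * E.f u * (E.f y)⁻¹) = 1 := by
          rw [conj_mul, fu, mul_one, mul_inv_cancel]
        have s3 : E.f y * E.f u * (E.f y)⁻¹ * E.f u * (E.f y * E.f u * (E.f y)⁻¹ * E.f u) = 1 := by
          rw [← s, fi]; simp only [mul_assoc]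
        rw [← inv_eq_of_mul_eq_one_right s3, mul_inv_rev, fi, inv_eq_of_mul_eq_one_right s2])
      refine E.iso ?_
      rw [← ux]
      calc _ = x⁻¹ * (y * u * y⁻¹ * u) * x := by group
        _ = x⁻¹ * (u * (y * u * y⁻¹)) * x := by rw [c]
        _ = _ := by group
    exact ⟨_, ⟨y, d, rfl⟩, πF d⟩

end H94.BE
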