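import Cfsg.Agent.Lib.B2E.Sk
import Cfsg.Agent.Lib.Core.Coprime

/-!
# The centraliser is `⟨t⟩ × θ` and a fusing element normalises `θ`
-/

set_option autoImplicit false

namespace H94.BE

open Cfsg H16 H95 H48.BR Subgroup H75.WC H18.BS

variable {G : Type*} [Group G] [Finite G]

namespace K3

theorem mem_of_pow {H : Subgroup G} {x : G} {n p : ℕ} (h : x ^ n ∈ H) (e : x ^ p = 1)
    (c : n.Coprime p) : x ∈ H :=
  zpowers_le.2 h (mem_zpowers_pow_iff.2 (c.coprime_dvd_right (orderOf_dvd_of_pow_eq_one e)))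

theorem split {L : Subgroup G} {t : G} (ht : t ∈ L) (tt : t * t = 1) (t1 : t ≠ 1)
    (c : ∀ x ∈ L, x * t = t * x) (h : ¬ 4 ∣ Nat.card L) : ∃ m, Odd m ∧ (∀ x ∈ L, x ^ m = 1 ∨ x ^ m = t) ∧
      ∃ θ : Subgroup G, Nat.card θ = m ∧ (∀ k, k ∈ L ↔ k ∈ θ ∨ k * t ∈ θ) ∧
        ∀ k, k ∈ θ ↔ k ∈ L ∧ k ^ m = 1 := by
  have : Fact (Nat.Prime 2) := ⟨Nat.prime_two⟩
  let z : L := ⟨t, ht⟩
  have z2 : z ^ 2 = 1 := Subtype.ext ((pow_two t).trans tt)
  have hz : ∀ a ∈ zpowers z, (a : G) = 1 ∨ (a : G) = t := by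
    rintro _ ⟨k, rfl⟩
    rcases Int.even_or_odd' k with ⟨m, rfl | rfl⟩ <;>
      simp only [zpow_add, zpow_mul, zpow_ofNat, z2, one_zpow, one_mul, pow_one]
    exacts [.inl rfl, .inr rfl]
  have : (zpowers z).Normal := ⟨by
    rintro _ ⟨n, rfl⟩ g
    exact ⟨n, by rw [← conj_zpow, show g * z = z * g from Subtype.ext (c g g.2), mul_inv_cancel_right]⟩⟩
  have c2 : Nat.card (zpowers z) = 2 := by
    rw [Nat.card_zpowers, orderOf_eq_prime z2 fun e => t1 (congrArg Subtype.val e)]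
  have k := (zpowers z).card_mul_index
  rw [c2] at k
  have ho : Odd (zpowers z).index := Nat.not_even_iff_odd.1 fun ⟨r, e⟩ => h ⟨r, by omega⟩
  obtain ⟨H, hH⟩ := exists_right_complement'_of_coprime (N := zpowers z)
    (by rw [c2]; exact Nat.coprime_two_left.2 ho)
  have c3 : Nat.card (H.map L.subtype) = (zpowers z).index := by
    rw [card_map_of_injective (subtype_injective _), hH.symm.index_eq_card]
  have a : ∀ k, k ∈ L ↔ k ∈ H.map L.subtype ∨ k * t ∈ H.map L.subtype := fun k => ⟨fun hk => ?_,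
    fun e => e.elim (fun e => map_subtype_le H e) fun e => (L.mul_mem_cancel_right ht).1 (map_subtype_le H e)⟩
  · refine ⟨_, ho, fun x hx => hz _ ((zpowers z).pow_index_mem ⟨x, hx⟩), _, c3, a, fun k =>
      ⟨fun e => ⟨map_subtype_le H e, ?_⟩, fun e => ((a k).1 e.1).resolve_right fun f => t1 ?_⟩⟩
    · rw [← c3]; exact congrArg Subtype.val (pow_card_eq_one' (x := (⟨k, e⟩ : H.map L.subtype)))
    · have : (k * t) ^ (zpowers z).index = 1 := by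
        rw [← c3]; exact congrArg Subtype.val (pow_card_eq_one' (x := (⟨_, f⟩ : H.map L.subtype)))
      obtain ⟨r, hr⟩ := ho
      rwa [Commute.mul_pow (c k e.1), e.2, one_mul, hr, pow_succ, pow_mul, pow_two, tt, one_pow,
        one_mul] at this
  · obtain ⟨⟨x, y⟩, e⟩ := hH.2 ⟨k, hk⟩
    have e' : (x : G) * y = k := congrArg Subtype.val e
    rcases hz x x.2 with f | f <;> rw [f] at e'
    · exact Or.inl ⟨y, y.2, (one_mul _).symm.trans e'⟩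
    · refine Or.inr ⟨y, y.2, ?_⟩
      rw [c k hk, ← e', ← mul_assoc, tt, one_mul]; rfl

omit [Finite G] in
theorem odd_pow {u : G} (uu : u * u = 1) {m : ℕ} (hm : Odd m) : u ^ m = u := by
  obtain ⟨r, rfl⟩ := hm
  rw [pow_succ, pow_mul, pow_two, uu, one_pow, one_mul]

omit [Finite G] in
theorem pow_mem_of {A Q : Subgroup G} (hQ : Q ≤ A) {b d : G} {m : ℕ} (hb : b ∈ Q)
    (hd : b⁻¹ * d ∈ CC A) (h : (b⁻¹ * d) ^ m ∈ Q) : d ^ m ∈ Q := by
  rw [← mul_inv_cancel_left b d, Commute.mul_pow (hd b (hQ hb))]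
  exact mul_mem (pow_mem hb m) h

theorem norm (S : Sk G) (ti : TI S.A) {g t : G} {m : ℕ} (hm : Odd m) (ht : Zs S.A t)
    (hZ : ∀ w, Zs S.A w → w = t) (hK : ∀ x ∈ CC S.A, x ^ m = 1 ∨ x ^ m = t) {θ : Subgroup G}
    (hc : Nat.card θ = m) (hθ : ∀ k, k ∈ θ ↔ k ∈ CC S.A ∧ k ^ m = 1) (hu : g * t * g⁻¹ ∈ S.P) :
    g ∈ NN θ := by
  have : Fact (Nat.Prime 2) := ⟨Nat.prime_two⟩
  obtain ⟨u, e⟩ : ∃ u, u = g * t * g⁻¹ := ⟨_, rfl⟩
  rw [← e] at hu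
  have zu : Zs (cA S.A g) u := Zs_cA.2 (by rw [e]; simpa [mul_assoc] using ht)
  have cN : ∀ x, x * u = u * x → x ∈ NN (cA S.A g) := fun x =>
    (ti.cA g).cent zu.2.1 zu.2.2.1 zu.2.2.2
  let X := S.P ⊓ centralizer {u}
  have mX : ∀ x ∈ X, x * u = u * x := fun x hx => mem_centralizer_singleton_iff.1 hx.2
  have two : ∀ d j, d ^ 2 ^ j = 1 → (∀ x ∈ X, d * x = x * d) → d ∈ S.A := fun d j h1 h2 => by
    obtain ⟨b, hb, k, -⟩ := S.fix ti hu fun x hx c => h2 x ⟨hx, mem_centralizer_singleton_iff.2 c⟩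
    refine mem_of_pow (pow_mem_of le_rfl (S.PA hb) k ?_) h1 ((Nat.coprime_two_right.2 hm).pow_right j)
    rcases hK _ k with f | f <;> rw [f]
    exacts [one_mem _, ht.1]
  have hX : IsPGroup 2 X := S.two.to_inf_left
  obtain ⟨a, ha, hs⟩ := (S.cj g).fix_sg hX fun x hx => cN x (mX x hx)
  let T := S.cj (a * g)
  have TA : T.A = cA S.A g := (cA_mul _ _ _).symm.trans (cA_eq.2 (le_normalizer ha))
  have Tτ : T.τ = a * (S.cj g).τ * a⁻¹ := by simp [T, mul_assoc]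
  have Tz : T.z = 1 ∨ T.z = u := by
    by_cases z1 : S.z = 1
    · exact Or.inl (by simp [T, z1])
    · refine Or.inr ?_
      rw [Sk.cj_z, hZ _ ⟨S.PA S.zP, S.zK, S.zz, z1⟩, ← mul_inv_cancel_right u a, ← zu.2.1 a ha, e]
      group
  have nm : ∀ x, x * u = u * x → x * T.τ = T.τ * x → x ∈ NN T.P := fun x h1 h2 => by
    obtain ⟨γ, hγ⟩ := T.act x (TA ▸ cN x h1) h2 (by rcases Tz with f | f <;> simp [f, h1])
    exact mem_normalizer_fintype fun y hy => (hγ y hy).1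
  have σA : T.τ ∈ S.A := two _ 1 (by rw [pow_one, pow_two, T.ττ]) fun x hx => Tτ ▸ (hs x hx).symm
  have key := H2.thompson_PxQ (P := X) (Q := θ) (U := T.P) hX (hc ▸ Nat.coprime_two_right.2 hm) T.two
    (fun x hx k hk => (((hθ k).1 hk).1 x (S.PA hx.1)).symm)
    (fun x hx => nm x (mX x hx) (Tτ ▸ hs x hx))
    (fun k hk => nm k (((hθ k).1 hk).1 u (S.PA hu)).symm (((hθ k).1 hk).1 _ σA).symm)
    fun d hd k hk => by
      obtain ⟨j, hj⟩ := T.two ⟨d, hd.1⟩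
      exact (((hθ k).1 hk).1 d (two d j (congrArg Subtype.val hj) fun x hx => (hd.2 x hx).symm)).symm
  refine inv_mem_iff.1 (mem_normalizer_fintype fun k hk => (hθ _).2 ⟨?_, ?_⟩)
  · obtain ⟨b, hb, h, -⟩ := T.fix (ti.cA _) (one_mem _) fun x hx _ => (key hk x hx).symm
    obtain ⟨j, hj⟩ := T.two ⟨b, hb⟩
    have hj' : b ^ 2 ^ j = 1 := congrArg Subtype.val hj
    rw [inv_inv, ← CC_cA, ← TA]
    refine mem_of_pow (n := 2 ^ j) ?_ ((hθ k).1 hk).2 ((Nat.coprime_two_left.2 hm).pow_left j)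
    rw [← mul_inv_cancel_left b k, Commute.mul_pow (h b (T.PA hb)), hj', one_mul]
    exact pow_mem h _
  · rw [conj_pow, ((hθ k).1 hk).2, mul_one, mul_inv_cancel]

end K3

open K3

theorem Sk.theta (S : Sk G) (ti : TI S.A) {g u : G} (n : g ∉ NN S.A) (hu : Zs (cA S.A g) u) (m : InM S.A u)
    (h : ¬ 4 ∣ Nat.card ↥(CC S.A ⊓ NN (cA S.A g))) : ∃ t, Zs S.A t ∧ ∃ θ : Subgroup G, Odd (Nat.card θ) ∧
      (∀ k, k ∈ CC S.A ↔ k ∈ θ ∨ k * t ∈ θ) ∧ NN S.A ≤ NN θ ∧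
      ∃ g ∈ NN θ, g * t * g⁻¹ ∈ S.A ∧ g * t * g⁻¹ ≠ t := by
  obtain ⟨a, ha, hk⟩ := m
  have cN : ∀ x, x * u = u * x → x ∈ NN (cA S.A g) := fun x =>
    (ti.cA g).cent hu.2.1 hu.2.2.1 hu.2.2.2
  have cu : ∀ x, Commute x a → Commute x (a⁻¹ * u) → x ∈ NN (cA S.A g) := fun x h1 h2 =>
    cN x (mul_inv_cancel_left a u ▸ h1.mul_right h2 :)
  have zL : ∀ w, Zs S.A w → w ∈ CC S.A ⊓ NN (cA S.A g) := fun w hw =>
    ⟨hw.2.1, cu w (hw.2.1 a ha).symm (hk w hw.1)⟩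
  obtain ⟨t, tP, -, ht⟩ := S.exists_t
  obtain ⟨m, hm, hL, θ, hc, h1, h2⟩ := split (zL t ht) ht.2.2.1 ht.2.2.2
    (fun x hx => (hx.1 t ht.1).symm) h
  have hZ : ∀ w, Zs S.A w → w = t := fun w hw => by
    have := hL w (zL w hw)
    rw [odd_pow hw.2.2.1 hm] at this
    exact this.resolve_left hw.2.2.2
  have uA : u ∈ S.A := by
    rw [← odd_pow hu.2.2.1 hm]
    refine pow_mem_of le_rfl ha hk ?_
    rcases hL _ ⟨hk, cu _ (hk a ha).symm (Commute.refl _)⟩ with f | f <;> rw [f]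
    exacts [one_mem _, ht.1]
  rw [inf_eq_left.2 fun x hx => cN x (hx u uA).symm] at hL h1 h2
  have e : g * t * g⁻¹ = u := by rw [← hZ _ (Zs_cA.1 hu)]; group
  have ut : u ≠ t := fun f => ht.2.2.2 (ti.eq_one n ht.2.1 (f ▸ hu.2.1) ht.2.2.1)
  obtain ⟨d, hd, b, hb, k⟩ := S.cls u uA (hu.2.2.1 ▸ one_mem _)
  have e' : d * g * t * (d * g)⁻¹ = d * u * d⁻¹ := by rw [← e]; group
  have uP : d * u * d⁻¹ ∈ S.P := by
    rw [← odd_pow (u := d * u * d⁻¹) (by rw [conj_mul, hu.2.2.1, mul_one, mul_inv_cancel]) hm]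
    refine pow_mem_of S.PA hb k ?_
    rcases hL _ k with f | f <;> rw [f]
    exacts [one_mem _, tP]
  refine ⟨t, ht, θ, hc ▸ hm, h1, fun x hx => mem_normalizer_fintype fun y hy => (h2 _).2
    ⟨CC_conj hx ((h2 y).1 hy).1, by rw [conj_pow, ((h2 y).1 hy).2, mul_one, mul_inv_cancel]⟩,
    d * g, norm S ti hm ht hZ hL hc h2 (e' ▸ uP), e' ▸ S.PA uP, fun f => ut ?_⟩
  rw [e', mul_inv_eq_iff_eq_mul, ← ht.2.1 d hd] at f
  exact mul_left_cancel f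

end H94.BE
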