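import Cfsg.Agent.Lib.B2E.Qa
import Cfsg.Agent.Lib.BStd.Q

/-!
# The extraspecial group `Q` of order `2^23` (helper94, after BSTD)
-/

set_option autoImplicit false

namespace H94.BE

open Cfsg H16 H95 H48.BR Subgroup H75.WC H18.BS

namespace Q

variable {G : Type*} [Group G] {P : Subgroup G} {π π' : G → V} {τ h d x y : G} {γ : C2} {v : V}

open H18.BS.Q (act_congr Tv ext ext_of)

/-- change of the coordinates outside `P` -/
def congr (S : Wt G) (π' : G → V) (e : ∀ x ∈ S.P, π' x = S.π x) : Wt G :=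
  { S with
    π := π'
    lf := ⟨S.lf.ne, S.lf.sq, S.lf.mem,
      fun x hx y hy => by rw [e _ (mul_mem hx hy), e x hx, e y hy, S.lf.add x hx y hy],
      fun x hx => by rw [e x hx, S.lf.ker x hx], fun x hx y hy => by rw [e x hx, e y hy, ← S.lf.comm x hx y hy],
      fun x hx => by rw [e x hx, S.lf.sqr x hx]⟩
    πt := (e _ S.tP).trans S.πt
    perp := fun x hx => by rw [e x hx, S.perp x hx]
    onto := fun a h => (S.onto a h).imp fun x k => ⟨k.1, (e x k.1).trans k.2⟩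
    act := fun d h1 h2 => (S.act d h1 h2).imp fun _ => (act_congr e).2
    ker := fun d h1 h2 h3 => S.ker d h1 h2 ((act_congr e).1 h3)
    surj := fun γ h => (S.surj γ h).imp fun _ k => ⟨k.1, k.2.1, (act_congr e).2 k.2.2⟩
    sig := fun x hx => by rw [e x hx, S.sig x hx]
    cls := fun u hu h => (S.cls u hu h).imp fun _ k => ⟨k.1, k.2.1, by rw [e _ k.2.1]; exact k.2.2⟩
    πβ := (e _ S.βP).trans S.πβ
    inE := fun x hx i hi h => S.inE x hx i hi ((e x hx).symm.trans h)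
    img := fun y γ h1 h2 h3 => S.img y γ h1 h2 ((act_congr e).1 h3)
    img' := fun γ h h' => (S.img' γ h h').imp fun _ k => ⟨k.1, k.2.1, (act_congr e).2 k.2.2⟩ }

open H69

/-- the normaliser of `<t, τ>` in the centraliser of `τ` -/
def E (S : Wt G) : Subgroup G where
  carrier := {y | y ∈ S.D ∨ Sw S y}
  one_mem' := .inl (one_mem _)
  mul_mem' := by
    rintro a b (ha | ha) (hb | hb)
    exacts [.inl (mul_mem ha hb), .inr (hb.mul ha), .inr (by simpa using ha.mul (ha.D hb)), .inl (ha.mul' hb)]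
  inv_mem' h := h.imp inv_mem Sw.inv

theorem mem_E {S : Wt G} : y ∈ E S ↔ y * S.τ = S.τ * y ∧ (y * S.t * y⁻¹ = S.t ∨ y * S.t * y⁻¹ = S.t * S.τ) := by
  refine (or_congr S.mem_D Iff.rfl).trans ?_
  rw [Sw, mul_inv_eq_iff_eq_mul (c := S.t)]
  tauto

theorem E_cj (S : Wt G) (g : G) : E (S.cj g) = E S ^ᶜ g := Subgroup.ext fun y => by
  obtain ⟨y, rfl⟩ := (MulAut.conj g).surjective y
  rw [MulAut.conj_apply, cj_mem_iff, mem_E, mem_E]
  simp only [Wt.cj_t, Wt.cj_τ, conj_inv, conj_mul, mul_left_inj, mul_right_inj]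

variable [Finite G] (S : Wt2 G) {R : Wt2 G}

theorem EY : E S.toWt ≤ S.Y := fun _ hy => by
  obtain ⟨q, hq, e⟩ := S.exists_D (mem_E.1 hy).1 (mem_E.1 hy).2
  exact (S.Y.mul_mem_cancel_left (S.QY hq)).1 (S.DY e)

omit [Finite G] in
theorem QE : S.Q ≤ E S.toWt := fun x hx => mem_E.2 ⟨S.lfQ.cent hx, by
  rw [S.lfQ.conj hx S.tQ]
  exact (zp_cases S.τ _).imp (fun e => by rw [e, mul_one]) fun e => by rw [e]⟩

theorem YN : S.Y ≤ 𝐍(S.Q) := le_normalizer_of_cj_le fun y hy _ hx => by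
  obtain ⟨a, ha, rfl⟩ := mem_cj'.1 hx
  exact (S.ψ_act ⟨y, hy⟩ a ha).1

theorem ψ_eq (d : S.D) : S.ψ ⟨d, S.DY d.2⟩ = S.φ d := S.uniqQ _ _ _ (S.ψ_act _) (S.actD d)

theorem E_iff (hτ : R.τ = S.τ) (h1 : R.t ∈ S.Q) (y : S.Y) :
    (y : G) ∈ E R.toWt ↔ S.ψ y • S.π R.t = S.π R.t := by
  rw [mem_E, hτ, ← (S.ψ_act y _ h1).2, eq_comm (b := S.π _), S.lfQ.eq_iff h1 (S.ψ_act y _ h1).1]
  exact and_iff_right y.2.1

theorem Q_le (hτ : R.τ = S.τ) (h1 : R.t ∈ S.Q) (h2 : S.π R.t = tb + bb)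
    (hc : Nat.card (E R.toWt) = Nat.card (E S.toWt)) : R.Q ≤ S.Q := by
  have e1 : ∀ y : S.Y, (y : G) ∈ E S.toWt ↔ S.ψ y • tb = tb := S.πt ▸ E_iff S rfl S.tQ
  have e2 : ∀ y : S.Y, (y : G) ∈ E R.toWt ↔ S.ψ y • (tb + bb) = tb + bb := h2 ▸ E_iff S hτ h1
  have o : Odd ((E R.toWt).relIndex (E S.toWt)) := by
    let := MulAction.compHom V (S.ψ.comp (inclusion (EY S)))
    rw [relIndex, show (E R.toWt).subgroupOf (E S.toWt) = MulAction.stabilizer _ (tb + bb) from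
      Subgroup.ext fun y => e2 ⟨y, EY S y.2⟩, MulAction.index_stabilizer]
    convert om_odd
    refine Set.ext fun a => ⟨fun ⟨y, e⟩ => e ▸ om_bb.smul ((e1 ⟨y, EY S y.2⟩).1 y.2), fun ha => ?_⟩
    obtain ⟨γ, k1, k2⟩ := om_trans ha
    obtain ⟨d, rfl⟩ := S.φ_surj k1
    refine ⟨⟨(d⁻¹ : S.D), .inl (d⁻¹).2⟩, (congrArg (· • (tb + bb)) (ψ_eq S d⁻¹)).trans ?_⟩
    rw [map_inv, ← k2, inv_smul_smul]
  have c := H1.card_inf_mul_relIndex (E S.toWt) (E R.toWt)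
  rw [hc, ← H1.card_inf_mul_relIndex (E R.toWt) (E S.toWt), inf_comm, mul_right_inj' Nat.card_pos.ne'] at c
  obtain ⟨T, hT⟩ := exists_isSylowIn 2 (E S.toWt ⊓ E R.toWt)
  have l : R.Q ≤ E S.toWt := ((hT.trans_of_not_dvd inf_le_right (by
    rw [inf_relIndex_right, c]; exact o.not_two_dvd_nat)).le_of_le_normalizer R.lfQ.two (QE R)
      (hT.le.trans (inf_le_right.trans ((EY R).trans (YN R))))).trans (hT.le.trans inf_le_left)
  have lY := l.trans (EY S)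
  have hA : (R.Q.subgroupOf S.Y).map S.ψ = ⊥ := by
    refine no_off (normal_SbU ((isPGroup_subgroupOf R.lfQ.two _).map _) ?_ ?_)
      (K := S.lfQ.img (R.Q ⊓ S.Q) inf_le_right) ?_ ?_
    · rintro _ ⟨y, hy, rfl⟩
      have := (e1 y).1 (l hy)
      exact ⟨this, by simpa [this] using (e2 y).1 (QE R hy)⟩
    · rintro s s1 s2 _ ⟨y, hy, rfl⟩
      obtain ⟨d, rfl⟩ := S.φ_surj s1
      replace s1 := s1.tb
      rw [← ψ_eq] at s1 s2 ⊢
      rw [← map_inv, ← map_mul, ← map_mul]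
      exact ⟨_, conj_mem_of_mem_normalizer (A := R.Q) (YN R (EY R ((e2 _).2 (by rw [smul_add, s1, s2])))) hy, rfl⟩
    · rintro _ ⟨y, hy, rfl⟩ _ ⟨x, hx, rfl⟩
      rw [← (S.ψ_act y x hx.2).2, R.lfQ.conj (x := y) hy hx.1, hτ]
      rcases zp_cases S.τ (be (R.π y) (R.π x)) with e | e <;> rw [e]
      exacts [by rw [mul_one], S.lfQ.mulτ hx.2]
    · have k := H1.card_inf_mul_relIndex S.ψ.ker (R.Q.subgroupOf S.Y)
      rw [relIndex_ker, card_subgroupOf lY, R.card_Q, show S.ψ.ker ⊓ R.Q.subgroupOf S.Y =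
        (R.Q ⊓ S.Q).subgroupOf S.Y from Subgroup.ext fun y => (and_congr_left' S.ψ_ker).trans and_comm,
        card_subgroupOf (inf_le_left.trans lY), S.lfQ.card inf_le_right ⟨hτ ▸ R.lfQ.mem, S.lfQ.mem⟩,
        mul_assoc] at k
      omega
  exact fun x hx => (S.ψ_ker (y := ⟨x, lY hx⟩)).1 ((Subgroup.map_eq_bot_iff _).1 hA hx)

end Q

open Q H69
open H18.BS.Q (act_congr Tv ext ext_of)

variable {G : Type*} [Group G] [Finite G]

theorem Wt.exists_Wt2 (S : Wt G) (h : IsConj S.t (S.t * S.τ)) : ∃ T : Wt2 G, T.t = S.t := by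
  obtain ⟨h, v, h1, h2, h3, h4⟩ := exists_tv h
  have ht : h * S.t * h⁻¹ = S.t * S.τ := by rw [h4 _ S.tP, S.πt, h2, zp_one]
  have T : Tv S.τ S.P S.π h v := ⟨S.lf, fun x hx e => zero_ne_one ((S.perp x hx).symm.trans (e ▸ h2)), h1,
    fun e => S.lf.ne (mul_eq_left.1 (ht.symm.trans (mul_inv_eq_iff_eq_mul.2 (S.Pt e)))), h3, h4⟩
  have e : ∀ x ∈ S.P, ext S.P S.π h v x = S.π x := fun _ => ext_of
  have hQ : h ∈ T.sub := ⟨1, one_mem _, 1, by rw [zp_one, one_mul]⟩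
  refine ⟨⟨Q.congr S _ e, T.sub, T.lfQ, fun a => ?_, T.le, ?_, fun d γ d1 d2 d3 => ?_⟩, rfl⟩
  · rcases z2 (be a tb) with k | k
    · exact (S.onto a k).imp fun x k => ⟨T.le k.1, (e x k.1).trans k.2⟩
    · obtain ⟨x, hx, f⟩ := S.onto (a + v) (by rw [be_add_left, k, h2]; rfl)
      exact ⟨_, ⟨x, hx, 1, rfl⟩, (T.ext_mul hx 1).trans (by rw [f, one_smul, add_assoc, add_self, add_zero])⟩
  · rintro _ ⟨x, hx, a, rfl⟩ k
    have k' : be (ext S.P S.π h v (x * zp h a)) tb = 0 := k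
    rw [T.ext_mul hx, be_add_left, S.perp x hx, zero_add, map_smul, LinearMap.smul_apply, h2, smul_eq_mul,
      mul_one] at k'
    rwa [k', zp_zero, mul_one]
  replace d3 : Act S.P S.π d γ := (act_congr e).1 d3
  replace d1 : d * S.t = S.t * d := d1
  replace d2 : d * S.τ = S.τ * d := d2
  have a1 : Act S.P S.π h 1 := fun x hx => by
    rw [h4 x hx, T.πz hx, one_smul]; exact ⟨mul_mem hx (T.zm _), rfl⟩
  have sw : Sw S h := ⟨ht, h1⟩
  have hd : d ∈ S.D := S.mem_D.2 ⟨d1, d2⟩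
  have m := S.mem_D.1 (mul_mem hd (sw.D (inv_mem hd)))
  have p : d * (h * d⁻¹ * h⁻¹) ∈ S.P :=
    S.ker _ m.1 m.2 (by simpa using d3.mul ((a1.mul d3.inv).mul a1.inv))
  have q : d * h * d⁻¹ ∈ T.sub := ⟨_, p, 1, by rw [zp_one]; group⟩
  have t := S.act_tb d3 d1
  have w : ext S.P S.π h v (d * h * d⁻¹) = γ • v := by
    refine add_eq_zero.1 ((mem_one (x := tb) fun c hc => ?_).resolve_right fun k => ?_)
    · obtain ⟨x, hx, f⟩ := S.onto (γ⁻¹ • c) (by rw [← be_smul γ, smul_inv_smul, t, be_comm, hc])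
      have k := T.lfQ.conj q (T.le (d3 x hx).1)
      rw [show d * h * d⁻¹ * (d * x * d⁻¹) * (d * h * d⁻¹)⁻¹ = d * (h * x * h⁻¹) * d⁻¹ by group, h4 x hx,
        cjτ d2, mul_right_inj, e _ (d3 x hx).1, (d3 x hx).2, f, smul_inv_smul] at k
      rw [be_comm, be_add_left, be_smul_left, zp_inj S.lf.ne k, CharTwo.add_self_eq_zero]
    · have l := T.lfQ.sqr _ q
      rw [conj_mul, h3, ← one_mul (zp _ _), cjτ d2, mul_one, mul_inv_cancel, one_mul,
        show ext S.P S.π h v (d * h * d⁻¹) = γ • v + γ • tb by rw [t, ← k, add_left_comm, add_self, add_zero],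
        ← smul_add, qq_smul, qq_add, ta_tb.qq, h2, add_zero] at l
      exact one_ne_zero (left_eq_add.1 (zp_inj S.lf.ne l))
  rintro _ ⟨x, hx, a, rfl⟩
  rcases z2 a with rfl | rfl
  · rw [zp_zero, mul_one]
    exact ⟨T.le (d3 x hx).1, (act_congr e).2 d3 x hx |>.2⟩
  rw [zp_one, ← conj_mul]
  refine ⟨mul_mem (T.le (d3 x hx).1) q, (T.lfQ.add _ (T.le (d3 x hx).1) _ q).trans ?_⟩
  rw [w, e _ (d3 x hx).1, (d3 x hx).2, ← smul_add, ← e x hx]
  refine congrArg _ (Eq.trans ?_ (T.lfQ.add _ (T.le hx) _ hQ).symm)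
  simpa [zp_one, S.lf.one] using (T.ext_mul (one_mem _) 1).symm

theorem Wt2.cj_Q_eq (S : Wt2 G) {g : G} (hg : g * S.τ = S.τ * g) (h1 : g * S.t * g⁻¹ ∈ S.Q)
    (h2 : Om (S.π (g * S.t * g⁻¹))) : (S.cj g).Q = S.Q := by
  obtain ⟨γ, k1, k2⟩ := om_trans h2
  obtain ⟨d, rfl⟩ := S.φ_surj k1
  have a := S.actD d _ h1
  rw [show (d : G) * (g * S.t * g⁻¹) * (d : G)⁻¹ = d * g * S.t * (d * g)⁻¹ by group] at a
  have hτ : (S.cj (d * g)).τ = S.τ := mul_inv_eq_iff_eq_mul.2 (Commute.mul_left (S.mem_D.1 d.2).2 hg).eq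
  have l := Q_le S hτ a.1 (a.2.trans k2) (by rw [Wt2.cj_toWt, BE.Q.E_cj, card_cj])
  refine eq_of_le_of_card_ge (fun x hx => ?_) (by rw [Wt2.card_Q, Wt2.card_Q])
  simpa [mul_assoc] using (S.actD d⁻¹ _ (l (show d * x * (d : G)⁻¹ ∈ _ from
    S.cj_Q.2 (by simpa [mul_assoc] using S.cj_Q.1 hx)))).1

theorem eqns_Q : True := by
  have := @Q.congr.eq_1.{0}
  have := @Q.E.eq_1.{0}
  trivial

end H94.BE
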