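import Cfsg.Agent.Lib.B2E.Fus
import Cfsg.Agent.Lib.LocStruct.SylowIn

/-!
# An element interchanging `t` and `tτ` which acts on `P` as a transvection (helper94, after BSTD)
-/

set_option autoImplicit false

namespace H94.BE.Q

open Cfsg H16 H95 H48.BR Subgroup H75.WC H18.BS

variable {G : Type*} [Group G] [Finite G] {S : Wt G} {g h d x : G}

/-- `g` interchanges `t` and `tτ` -/
def Sw (S : Wt G) (g : G) : Prop := g * S.t * g⁻¹ = S.t * S.τ ∧ g * S.τ = S.τ * g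

omit [Finite G] in
theorem exists_sw (h : IsConj S.t (S.t * S.τ)) : ∃ g, Sw S g := by
  obtain ⟨g, e⟩ := isConj_iff.1 h
  obtain ⟨σ, ⟨c, hc, rfl⟩, f⟩ := (S.cj g).fix_sg S.lf.two fun x hx => by
    rw [Wt.cj_t, e, ← mul_assoc, S.Pt hx, mul_assoc, S.Pτ hx, mul_assoc]
  rw [Wt.cj_t, e] at hc
  have k : IsConj S.τ (c * (S.cj g).τ * c⁻¹) := isConj_iff.2 ⟨c * g, by simp [mul_assoc]⟩
  refine ⟨c * g, ?_, ?_⟩
  · rw [← mul_inv_cancel_right (S.t * S.τ) c, ← hc, ← e]; group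
  rcases S.centP f with r | r | r | r <;> rw [r] at k
  · exact (S.lf.ne (isConj_one_left.1 k)).elim
  · exact mul_inv_eq_iff_eq_mul.1 (Eq.trans (by simp [mul_assoc]) r)
  · exact (S.nc k.symm).elim
  · exact (S.nc (h.trans k.symm)).elim

omit [Finite G] in
theorem cjτ (e : g * S.τ = S.τ * g) (x : G) (a : ZMod 2) :
    g * (x * zp S.τ a) * g⁻¹ = g * x * g⁻¹ * zp S.τ a := by
  rw [← mul_assoc, mul_assoc _ _ g⁻¹, ← zp_comm (Commute.inv_left e).eq, mul_assoc _ g⁻¹]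

omit [Finite G] in
theorem cjτ' (e : g * S.τ = S.τ * g) (x : G) : g * (x * S.τ) * g⁻¹ = g * x * g⁻¹ * S.τ := by
  simpa only [zp_one] using cjτ e x 1

namespace Sw

omit [Finite G]

theorem inv (h : Sw S g) : Sw S g⁻¹ :=
  ⟨by
    have : g * (S.t * S.τ) * g⁻¹ = S.t := by rw [cjτ' h.2, h.1, mul_assoc, S.lf.sq, mul_one]
    calc g⁻¹ * S.t * g⁻¹⁻¹ = g⁻¹ * (g * (S.t * S.τ) * g⁻¹) * g⁻¹⁻¹ := by rw [this]
      _ = _ := by group, (Commute.inv_left h.2).eq⟩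

theorem mul (h : Sw S g) (hd : d ∈ S.D) : Sw S (d * g) :=
  ⟨by
    obtain ⟨a, b⟩ := S.mem_D.1 hd
    rw [show d * g * S.t * (d * g)⁻¹ = d * (g * S.t * g⁻¹) * d⁻¹ by group, h.1, cjτ' b, a,
      mul_inv_cancel_right], Commute.mul_left (S.mem_D.1 hd).2 h.2⟩

theorem mul' (h : Sw S g) (k : Sw S x) : g * x ∈ S.D :=
  S.mem_D.2 ⟨mul_inv_eq_iff_eq_mul.1 (by
    rw [show g * x * S.t * (g * x)⁻¹ = g * (x * S.t * x⁻¹) * g⁻¹ by group, k.1, cjτ' h.2, h.1,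
      mul_assoc, S.lf.sq, mul_one]), Commute.mul_left h.2 k.2⟩

theorem D (h : Sw S g) (hd : d ∈ S.D) : g * d * g⁻¹ ∈ S.D := by
  rw [mul_assoc]; exact h.mul' (h.inv.mul hd)

theorem P (h : Sw S g) (hx : x ∈ S.P) : g * x * g⁻¹ ∈ S.P :=
  S.le_P (N := (S.cj g).P) (S.cj g).lf.two
    (fun y hy => by simpa [mul_assoc] using h.D (S.PD (S.cj_P.1 hy)))
    (fun d hd y hy => S.cj_P.2 (by
      simpa [mul_assoc] using (S.φ_act ⟨_, h.inv.D hd⟩ _ (S.cj_P.1 hy)).1))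
    (S.cj_P.2 (by simpa [mul_assoc] using hx))

end Sw

omit [Finite G] in
theorem πtβ (S : Wt G) : S.π (S.t * S.β) = tb + bb := by rw [S.lf.add _ S.tP _ S.βP, S.πt, S.πβ]

omit [Finite G] in
theorem bb_ne_tb : bb ≠ tb := fun e => ta_tb.not_tb (e ▸ tb_bb)

omit [Finite G] in
theorem fixβ (h1 : g * S.β * g⁻¹ ∈ S.P) (h2 : S.π (g * S.β * g⁻¹) = bb) : ∃ p ∈ S.P, p * g * S.β = S.β * (p * g) := by
  rcases (S.lf.eq_iff S.βP h1).1 (S.πβ.trans h2.symm) with f | f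
  · exact ⟨1, one_mem _, by rw [one_mul]; exact mul_inv_eq_iff_eq_mul.1 f⟩
  · obtain ⟨p, hp, e⟩ := S.conj_τ S.βP (S.πβ ▸ tb_bb.ne) (S.πβ ▸ bb_ne_tb)
    refine ⟨p⁻¹, inv_mem hp, mul_inv_eq_iff_eq_mul.1 ?_⟩
    calc p⁻¹ * g * S.β * (p⁻¹ * g)⁻¹ = p⁻¹ * (g * S.β * g⁻¹) * p := by group
      _ = S.β := by rw [f, ← e]; group

omit [Finite G] in
theorem Sw.wd (h : Sw S g) (hx : x ∈ S.P) {y : G} (hy : y ∈ S.P) (e : S.π x = S.π y) :
    S.π (g * x * g⁻¹) = S.π (g * y * g⁻¹) := by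
  rcases (S.lf.eq_iff hx hy).1 e with rfl | rfl
  · rfl
  · rw [cjτ' h.2, S.lf.mulτ (h.P hx)]

omit [Finite G] in
theorem Sw.tβ (h : Sw S g) : IsConj S.t (S.t * S.β) := (isConj_iff.2 ⟨g, h.1⟩ : IsConj S.t _).trans
  (isConj_iff.2 ⟨S.c, by rw [← conj_mul, S.ct, mul_inv_cancel_right, S.cτ]⟩)

theorem Sw.exβ (h : Sw S g) : ∃ g, Sw S g ∧ g * S.β = S.β * g := by
  let c : S.D →* S.D := ((MulAut.conj g⁻¹).toMonoidHom.comp S.D.subtype).codRestrict _ fun d => h.inv.D d.2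
  obtain ⟨a, ha, e⟩ := fix_om (N := VB.R0.comap S.φ) (VB.R0_two.comap_of_ker_isPGroup _
    ((S.lf.two.comap_subtype (K := S.D)).to_le fun _ => S.φ_ker.1)) (S.φ.comp (c.comp (Subgroup.subtype _)))
    fun _ => S.φ_tb _
  obtain ⟨γ, g1, g2⟩ := om_transU ha
  obtain ⟨d, rfl⟩ := S.φ_surj g1
  have k : Sw S (g * (d⁻¹ : S.D)) := by simpa using h.mul (h.D (d⁻¹).2)
  have e' : ∀ r : S.D, S.φ r ∈ VB.R0 → S.π ((d * c r * d⁻¹ : S.D) * S.β * ((d * c r * d⁻¹ : S.D) : G)⁻¹) = S.π S.β :=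
    fun r hr => by
      have := e ⟨r, hr⟩
      have f : S.φ (d * c r * d⁻¹) • (tb + bb) = tb + bb := by
        rw [map_mul, map_mul, map_inv, ← g2, mul_smul, mul_smul, inv_smul_smul]; exact congrArg _ this
      rw [smul_add, S.φ_tb, add_right_inj] at f
      rw [(S.φ_act _ _ S.βP).2, S.πβ, f]
  have e2 : ∀ r : S.D, ((d * c r * d⁻¹ : S.D) : G) = (g * (d⁻¹ : S.D))⁻¹ * r * (g * (d⁻¹ : S.D)) := fun r => by
    simp [c, mul_assoc]
  simp only [e2] at e'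
  generalize g * (d⁻¹ : S.D) = g at k e'
  have tβ := S.P.mul_mem S.tP S.βP
  have c3 : ¬ IsConj S.t (g * S.β * g⁻¹) := fun e =>
    S.nc (e.trans (S.sg_β.isConj.trans (isConj_iff.2 ⟨g, rfl⟩)).symm)
  obtain ⟨p, hp, f⟩ := fixβ (k.P S.βP) (by
    rcases fix_R0 (a := S.π (g * S.β * g⁻¹)) (fun ε h1 h2 => by
      obtain ⟨y, rfl⟩ := S.φ_surj (uu_eps h1 h2)
      have m : g⁻¹ * y * g ∈ S.D := by simpa using k.inv.D y.2
      rw [← (S.φ_act y _ (k.P S.βP)).2, ← k.wd (S.φ_act ⟨_, m⟩ _ S.βP).1 S.βP (e' y ⟨h1, h2⟩)]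
      congr 1; group) with r | r | r | r
    · rcases (S.lf.ker _ (k.P S.βP)).1 r with r | r
      · exact (tb_bb.ne (by rw [← S.πβ, conj_eq_one_iff.1 r, S.lf.one])).elim
      · exact (tb_bb.ne (by rw [← S.πβ, mul_left_cancel ((mul_inv_eq_iff_eq_mul.1 r).trans k.2.symm),
          S.lf.τ0])).elim
    · exact (c3 (((S.eq_tb (k.P S.βP)).1 r).elim (fun e => e ▸ IsConj.refl _)
        fun e => e ▸ isConj_iff.2 ⟨g, k.1⟩)).elim
    · exact r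
    · obtain ⟨p, -, e⟩ := S.conj_τ tβ (πtβ S ▸ om_bb.1.ne) (πtβ S ▸ om_bb.2.2)
      exact (c3 (((S.lf.eq_iff tβ (k.P S.βP)).1 ((πtβ S).trans r.symm)).elim (fun e => e ▸ k.tβ)
        fun f => f ▸ k.tβ.trans (isConj_iff.2 ⟨p, e⟩))).elim)
  exact ⟨p * g, k.mul (S.PD hp), f⟩

theorem Sw.ex (h : Sw S g) (hx : x ∈ S.P) (o : Om (S.π x + tb)) : ∃ g, Sw S g ∧ g * x = x * g := by
  obtain ⟨g, h, c⟩ := h.exβ
  obtain ⟨γ, g1, g2⟩ := om_transU o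
  obtain ⟨d, rfl⟩ := S.φ_surj g1
  rw [smul_add, g1.tb, add_comm, add_right_inj, ← (S.φ_act d x hx).2, ← S.πβ] at g2
  have : g * (d * x * (d : G)⁻¹) = d * x * (d : G)⁻¹ * g := by
    rcases (S.lf.eq_iff S.βP (S.φ_act d x hx).1).1 g2.symm with e | e <;> rw [e]
    exacts [c, (Commute.mul_right c h.2).eq]
  refine ⟨(d : G)⁻¹ * g * d, ?_, ?_⟩
  · simpa [mul_assoc] using (h.mul (h.D d.2)).mul (inv_mem d.2)
  · calc _ = (d : G)⁻¹ * (g * (d * x * (d : G)⁻¹)) * d := by group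
      _ = _ := by rw [this]; group

theorem exρ (h : IsConj S.t (S.t * S.τ)) :
    ∃ ρ, ρ * S.τ = S.τ * ρ ∧ ρ * S.β = S.β * ρ ∧ ρ * S.t * ρ⁻¹ = S.t * S.β := by
  have e1 : (S.cj S.c).t = S.t := mul_inv_eq_iff_eq_mul.2 S.ct
  have e2 : (S.cj S.c).τ = S.β := S.cτ
  have m : S.τ ∈ (S.cj S.c).P := (mul_mem_cancel_left (e1 ▸ (S.cj S.c).tP)).1
    (S.inE _ (S.P.mul_mem S.tP S.lf.mem) _ pt_one (by rw [S.lf.mulτ S.tP, S.πt, xx_one]))
  obtain ⟨g, hg⟩ := exists_sw (S := S.cj S.c) (by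
    rw [Wt.cj_t, Wt.cj_τ, conj_mul]; exact (isConj_iff.2 ⟨_, rfl⟩ : IsConj S.t _).symm.trans (h.trans (isConj_iff.2 ⟨_, rfl⟩)))
  obtain ⟨ρ, h1, h2⟩ := hg.ex m ((((S.cj S.c).sig _ m).1 (by rw [e1, e2]; exact S.sg_β.symm)).resolve_left fun e =>
    tb_bb.ne (by rw [← S.πβ, ← e2, ← e, S.lf.τ0]))
  exact ⟨ρ, h2, e2 ▸ h1.2, by have := h1.1; rwa [e1, e2] at this⟩

theorem le_ρ {ρ : G} (h1 : ρ * S.τ = S.τ * ρ) (h2 : ρ * S.β = S.β * ρ) (h3 : ρ * S.t * ρ⁻¹ = S.t * S.β) :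
    (S.cj ρ).P ⊓ centralizer {S.t} ≤ S.P := by
  have e1 : (S.cj ρ).t = S.t * S.β := h3
  have e2 : (S.cj ρ).τ = S.τ := mul_inv_eq_iff_eq_mul.2 h1
  have mβ : S.β ∈ (S.cj ρ).P := S.cj_P.2 (by rw [mul_assoc, ← h2, inv_mul_cancel_left]; exact S.βP)
  generalize S.cj ρ = T at e1 e2 mβ
  have mt : S.t ∈ T.P := (mul_mem_cancel_right mβ).1 (e1 ▸ T.tP)
  have l : T.P ⊓ centralizer {S.t} ≤ S.D := fun x hx =>
    S.mem_D.2 ⟨mem_centralizer_singleton_iff.1 hx.2, e2 ▸ T.Pτ hx.1⟩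
  have hA : ((T.P ⊓ centralizer {S.t}).subgroupOf S.D).map S.φ = ⊥ := by
    refine no_off16 (normal_SbU ((H69.isPGroup_subgroupOf (T.lf.two.to_inf_left) _).map _) ?_ ?_)
      (K := S.lf.img (T.P ⊓ centralizer {S.t} ⊓ S.P) inf_le_right) ?_ ?_
    · rintro _ ⟨y, hy, rfl⟩
      refine ⟨S.φ_tb y, ?_⟩
      have : (y : G) * T.t = T.t * y := T.Pt hy.1
      rw [e1, ← mul_assoc, (S.mem_D.1 y.2).1, mul_assoc, mul_assoc, mul_right_inj] at this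
      rw [← S.πβ, ← (S.φ_act y _ S.βP).2, this, mul_inv_cancel_right]
    · rintro s s1 s2 _ ⟨y, hy, rfl⟩
      obtain ⟨d, rfl⟩ := S.φ_surj s1
      obtain ⟨p, hp, f⟩ := fixβ (S.φ_act d _ S.βP).1 (by rw [(S.φ_act d _ S.βP).2, S.πβ, s2])
      have m := S.mem_D.1 (mul_mem (S.PD hp) d.2)
      have e : S.φ (⟨p, S.PD hp⟩ * d) = S.φ d := by rw [map_mul, S.φ_ker.2 hp, one_mul]
      rw [← e, ← map_inv, ← map_mul, ← map_mul]
      exact ⟨_, ⟨(T.φ_act ⟨_, T.mem_D.2 ⟨e1 ▸ (Commute.mul_right m.1 f).eq, e2 ▸ m.2⟩⟩ _ hy.1).1,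
        mem_centralizer_singleton_iff.2 (S.mem_D.1 (Subtype.prop _)).1⟩, rfl⟩
    · rintro _ ⟨y, hy, rfl⟩ _ ⟨x, hx, rfl⟩
      rw [← (S.φ_act y x hx.2).2, T.lf.conj (x := y) hy.1 hx.1.1, e2]
      rcases zp_cases S.τ (be (T.π y) (T.π x)) with e | e <;> rw [e]
      exacts [by rw [mul_one], S.lf.mulτ hx.2]
    · have k := H1.card_inf_mul_relIndex S.φ.ker ((T.P ⊓ centralizer {S.t}).subgroupOf S.D)
      have n := Fus.card_N mt
      rw [relIndex_ker, H69.card_subgroupOf l, show S.φ.ker ⊓ (T.P ⊓ centralizer {S.t}).subgroupOf S.D =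
        (T.P ⊓ centralizer {S.t} ⊓ S.P).subgroupOf S.D from
          Subgroup.ext fun y => (and_congr_left' S.φ_ker).trans and_comm,
        H69.card_subgroupOf (inf_le_left.trans l), S.lf.card (N := T.P ⊓ centralizer {S.t} ⊓ S.P) inf_le_right
          ⟨⟨e2 ▸ T.lf.mem, mem_centralizer_singleton_iff.2 (S.Pτ S.tP).symm⟩, S.lf.mem⟩, mul_assoc] at k
      omega
  exact fun x hx => (S.φ_ker (d := ⟨x, l hx⟩)).1 ((Subgroup.map_eq_bot_iff _).1 hA hx)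

theorem exists_one (h : IsConj S.t (S.t * S.τ)) : ∃ g, Sw S g ∧ Act S.P S.π g 1 := by
  obtain ⟨ρ, h1, h2, h3⟩ := exρ h
  have ββ : S.β * S.β = 1 := (S.lf.sq_iff S.βP).2 (S.πβ ▸ tb_bb.qq)
  have h4 : ρ * (S.t * S.β) * ρ⁻¹ = S.t := by
    rw [← conj_mul, h3, h2, mul_inv_cancel_right, mul_assoc, ββ, mul_one]
  have l : ∀ x ∈ S.P, be (S.π x) bb = 0 → x ∈ (S.cj ρ).P := fun x hx e =>
    le_ρ (ρ := ρ⁻¹) (Commute.inv_left h1) (Commute.inv_left h2) (by nth_rw 1 [← h4]; group)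
      (x := ρ⁻¹ * x * ρ) ⟨S.cj_P.2 (by simpa [mul_assoc] using hx), mem_centralizer_singleton_iff.2 (by
        have := (Commute.mul_right (S.Pt hx) ((S.lf.commute_iff hx S.βP).2 (S.πβ ▸ e))).eq
        calc ρ⁻¹ * x * ρ * S.t = ρ⁻¹ * (x * (ρ * S.t * ρ⁻¹)) * ρ := by group
          _ = ρ⁻¹ * (ρ * S.t * ρ⁻¹ * x) * ρ := by rw [h3, this]
          _ = _ := by group)⟩
  have e1 : (S.cj ρ).t = S.t * S.β := h3
  have e2 : (S.cj ρ).τ = S.τ := mul_inv_eq_iff_eq_mul.2 h1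
  have e3 : ρ⁻¹ * S.β * ρ = S.β := by rw [mul_assoc, ← h2, inv_mul_cancel_left]
  obtain ⟨g, hg, e⟩ := (S.cj ρ).conj_τ (l _ S.βP (S.πβ ▸ be_self _)) (by rw [Wt.cj_π, e3, S.πβ]; exact tb_bb.ne)
    (by rw [Wt.cj_π, e3, S.πβ]; exact bb_ne_tb)
  generalize S.cj ρ = T at l e1 e2 hg e
  have k : Sw S g := ⟨by
    have := mul_inv_eq_iff_eq_mul.2 (T.Pt hg)
    rw [e1, ← conj_mul, e, e2, ← S.Pτ S.βP |>.symm, ← mul_assoc, mul_left_inj] at this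
    nth_rw 2 [← this]
    rw [mul_assoc _ S.τ, S.lf.sq, mul_one], e2 ▸ T.Pτ hg⟩
  have f : ∀ x ∈ S.P, be (S.π x) bb = 0 → S.π (g * x * g⁻¹) = S.π x := fun x hx b => by
    rw [T.lf.conj hg (l x hx b), e2]
    rcases zp_cases S.τ (be (T.π g) (T.π x)) with e | e <;> rw [e]
    exacts [by rw [mul_one], S.lf.mulτ hx]
  obtain ⟨o, ho, eo⟩ := S.onto _ VB.om_oo.2.1
  have q : qq (S.π (g * o * g⁻¹)) = 0 := (S.lf.sq_iff (k.P ho)).1 (by
    rw [conj_mul, (S.lf.sq_iff ho).2 (eo ▸ VB.om_oo.1.qq), mul_one, mul_inv_cancel])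
  have fo : S.π (g * o * g⁻¹) = S.π o := by
    have w : ∀ w, S.π (g * o * g⁻¹) + S.π o = w → S.π (g * o * g⁻¹) = VB.oo + w := fun w e => by
      rw [← e, eo, add_left_comm, add_self, add_zero]
    rcases mem_two (x := tb) (y := bb) (a := S.π (g * o * g⁻¹) + S.π o) (fun c c1 c2 => by
      obtain ⟨y, hy, rfl⟩ := S.onto c ((be_comm _ _).trans c1)
      have : be (S.π (g * y * g⁻¹)) (S.π (g * o * g⁻¹)) = 0 ↔ be (S.π y) (S.π o) = 0 := by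
        rw [← S.lf.commute_iff (k.P hy) (k.P ho), ← S.lf.commute_iff hy ho, conj_mul, conj_mul, mul_left_inj,
          mul_right_inj]
      rw [f y hy ((be_comm _ _).trans c2)] at this
      rw [be_add_right]
      generalize be (S.π y) (S.π (g * o * g⁻¹)) = u, be (S.π y) (S.π o) = v at this
      revert u v; decide) with r | r | r | r
    · exact add_eq_zero.1 r
    · obtain ⟨γ, g1, g2⟩ := om_transU VB.om_oo
      refine (S.nc (k.tβ.trans ((Fus.ic_smul ho (mul_mem S.tP S.βP) g1 (by rw [eo, g2, πtβ])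
        (eo ▸ VB.om_oo.1.ne) (eo ▸ VB.om_oo.2.2)).symm.trans ((isConj_iff.2 ⟨g, rfl⟩ : IsConj o _).trans
          ((S.sig _ (k.P ho)).2 (Or.inr ?_)).isConj.symm)))).elim
      rw [w _ r, add_assoc, add_self, add_zero]; exact VB.om_oo
    · rw [w _ r, qq_add, VB.om_oo.1.qq, tb_bb.qq, VB.be_oo_bb] at q
      exact absurd q (by decide)
    · rw [w _ r, qq_add, VB.om_oo.1.qq, om_bb.1.qq, be_add_right, VB.om_oo.2.1, VB.be_oo_bb] at q
      exact absurd q (by decide)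
  refine ⟨g, k, fun x hx => ⟨k.P hx, (one_smul C2 (S.π x)).symm ▸ ?_⟩⟩
  rcases z2 (be (S.π x) bb) with b | b
  · exact f x hx b
  · have := f _ (mul_mem hx ho) (by rw [S.lf.add _ hx _ ho, be_add_left, b, eo, VB.be_oo_bb]; rfl)
    rwa [← conj_mul, S.lf.add _ (k.P hx) _ (k.P ho), S.lf.add _ hx _ ho, fo, add_left_inj] at this

theorem exists_tv (h : IsConj S.t (S.t * S.τ)) : ∃ h v, h * S.τ = S.τ * h ∧ be v tb = 1 ∧
    h * h = zp S.τ (qq v) ∧ ∀ x ∈ S.P, h * x * h⁻¹ = x * zp S.τ (be v (S.π x)) := by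
  obtain ⟨g, hg, a⟩ := exists_one h
  have n : S.t * S.τ ≠ S.t := fun e => S.lf.ne (mul_eq_left.1 e)
  have s : g * (S.t * S.τ) * g⁻¹ = S.t := by rw [cjτ' hg.2, hg.1, mul_assoc, S.lf.sq, mul_one]
  have m : ∀ x ∈ S.P, g * x * g⁻¹ = x → x ∈ S.P ⊓ centralizer {g} := fun x hx e =>
    ⟨hx, mem_centralizer_singleton_iff.2 (mul_inv_eq_iff_eq_mul.1 e).symm⟩
  obtain ⟨v, h1, h2⟩ : ∃ v, (∀ x ∈ S.lf.img (S.P ⊓ centralizer {g}) inf_le_left, be x v = 0) ∧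
      be v tb ≠ 0 := by
    by_contra! e
    obtain ⟨x, hx, e⟩ := mem_of_perp e
    have := mul_inv_eq_iff_eq_mul.2 (mem_centralizer_singleton_iff.1 hx.2).symm
    rcases (S.eq_tb hx.1).1 e with rfl | rfl
    · exact n (hg.1.symm.trans this)
    · exact n (this.symm.trans s)
  have h3 := (z2 _).resolve_left h2
  have f : ∀ x ∈ S.P, g * x * g⁻¹ = x * zp S.τ (be v (S.π x)) := fun x hx => by
    rcases (S.lf.eq_iff hx (a x hx).1).1 (by rw [(a x hx).2, one_smul]) with e | e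
    · rw [be_comm, h1 _ ⟨x, m x hx e, rfl⟩, zp_zero, mul_one, e]
    · have := h1 _ ⟨_, m _ (mul_mem hx S.tP) (by
        rw [← conj_mul, e, hg.1, mul_assoc, ← mul_assoc S.τ, ← S.Pτ S.tP, mul_assoc, S.lf.sq,
          mul_one]), rfl⟩
      rw [S.lf.add _ hx _ S.tP, S.πt, be_comm, be_add_right, h3] at this
      rw [e, eq_neg_of_add_eq_zero_left this, CharTwo.neg_eq, zp_one]
  obtain ⟨e, he⟩ : ∃ e, g * g = zp S.τ e := by
    have c : g * (g * g) * g⁻¹ = g * g := by group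
    rcases S.centP (d := g * g) (fun x hx => mul_inv_eq_iff_eq_mul.1 (by
      rw [show g * g * x * (g * g)⁻¹ = g * (g * x * g⁻¹) * g⁻¹ by group, f x hx, cjτ hg.2, f x hx,
        mul_assoc, ← zp_add S.lf.sq, CharTwo.add_self_eq_zero, zp_zero, mul_one])) with r | r | r | r
    · exact ⟨0, r.trans (zp_zero _).symm⟩
    · exact ⟨1, r.trans (zp_one _).symm⟩
    · rw [r] at c; exact (n (hg.1.symm.trans c)).elim
    · rw [r] at c; exact (n (c.symm.trans s)).elim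
  by_cases q : qq v = e
  · exact ⟨g, v, hg.2, h3, q ▸ he, f⟩
  refine ⟨g, v + tb, hg.2, by rw [be_add_left, h3, be_self, add_zero], ?_, fun x hx => by
    rw [be_add_left, be_comm tb, S.perp x hx, add_zero, f x hx]⟩
  rw [he, qq_add, ta_tb.qq, h3, (by decide : ∀ b e : ZMod 2, b ≠ e → b + 0 + 1 = e) _ _ q]

theorem eqns_Qa : True := by
  have := @Sw.eq_1.{0}
  trivial

end H94.BE.Q
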