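import Cfsg.Agent.Lib.BStd.St
import Cfsg.Agent.Lib.B2E.VU

/-!
# A subgroup of type `2.²E6(2)` or `2².²E6(2)` with arbitrary centraliser, elementwise (helper94)
-/

set_option autoImplicit false

namespace H94.BE

open Cfsg H16 H95 H48.BR Subgroup H75.WC H18.BS

variable {G : Type*} [Group G]

/-- the centraliser -/
abbrev CC (A : Subgroup G) : Subgroup G := centralizer (A : Set G)

/-- the normaliser -/
abbrev NN (A : Subgroup G) : Subgroup G := normalizer (A : Set G)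

/-- central involutions -/
def Zs (A : Subgroup G) (w : G) : Prop := w ∈ A ∧ w ∈ CC A ∧ w * w = 1 ∧ w ≠ 1

/-- elements inducing inner automorphisms -/
def InM (A : Subgroup G) (x : G) : Prop := ∃ a ∈ A, a⁻¹ * x ∈ CC A

/-- tight embedding of the centraliser -/
def TI (A : Subgroup G) : Prop := ∀ g k, k ∈ CC A → k * k = 1 → k ≠ 1 → g * k * g⁻¹ ∈ CC A → g ∈ NN A

/-- the data taken from the Monster -/
structure Sk (G : Type*) [Group G] where
  A : Subgroup G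
  z : G
  τ : G
  P : Subgroup G
  π : G → V
  PA : P ≤ A
  τP : τ ∈ P
  τK : τ ∉ CC A
  ττ : τ * τ = 1
  πτ : π τ = 0
  zP : z ∈ P
  zK : z ∈ CC A
  add : ∀ x ∈ P, ∀ y ∈ P, π (x * y) = π x + π y
  ker0 : ∀ x ∈ P, π x = 0 → x = 1 ∨ x = τ ∨ x = z ∨ x = z * τ
  comm : ∀ x ∈ P, ∀ y ∈ P, x * y = y * x * zp τ (be (π x) (π y))
  sqr : ∀ x ∈ P, x * x = zp τ (qq (π x))
  perp : ∀ x ∈ P, be (π x) tb = 0
  onto : ∀ a, be a tb = 0 → ∃ x ∈ P, π x = a
  ZP : ∀ w, Zs A w → w ∈ P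
  tbK : ∀ x ∈ P, π x = tb → x ∈ CC A ∨ x * τ ∈ CC A
  sgN : ∀ n ∈ NN A, ∃ a ∈ A, n * τ * n⁻¹ = a * τ * a⁻¹
  odd : Odd {x | ∃ a ∈ A, a * τ * a⁻¹ = x}.ncard
  act : ∀ d ∈ NN A, d * τ = τ * d → d * z = z * d → ∃ γ, Act P π d γ
  ker : ∀ d ∈ NN A, d * τ = τ * d → d * z = z * d → Act P π d 1 → ∃ b ∈ P, b⁻¹ * d ∈ CC A
  surj : ∀ γ : C2, UU γ → ∃ d ∈ A, d * τ = τ * d ∧ Act P π d γ
  idx : ∀ w, Zs A w → ∀ x ∈ NN A, ∀ y ∈ NN A, x * w = w * x → y * w = w * y → InM A x ∨ InM A y ∨ InM A (x * y)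
  cls : ∀ a ∈ A, a * a ∈ CC A → ∃ d ∈ A, ∃ b ∈ P, b⁻¹ * (d * a * d⁻¹) ∈ CC A

section map

variable {H : Type*} [Group H] (e : G ≃* H) {A : Subgroup G}

theorem CC_map {x : H} : x ∈ CC (A.comap e.symm.toMonoidHom) ↔ e.symm x ∈ CC A :=
  ⟨fun h a ha => e.injective (by simpa using h (e a) (by simpa using ha)),
    fun h a ha => e.symm.injective (by simpa using h _ ha)⟩

theorem NN_map {x : H} : x ∈ NN (A.comap e.symm.toMonoidHom) ↔ e.symm x ∈ NN A := by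
  simp only [mem_normalizer_iff]
  exact ⟨fun h a => by simpa using h (e a), fun h a => by simpa using h (e.symm a)⟩

theorem Zs_map {x : H} : Zs (A.comap e.symm.toMonoidHom) x ↔ Zs A (e.symm x) := by
  rw [Zs, Zs, CC_map, ← map_mul, Ne, Ne, e.symm.map_eq_one_iff, e.symm.map_eq_one_iff]; rfl

theorem InM_map {x : H} : InM (A.comap e.symm.toMonoidHom) x ↔ InM A (e.symm x) :=
  ⟨fun ⟨a, ha, h⟩ => ⟨_, ha, by simpa using (CC_map e).1 h⟩,
    fun ⟨a, ha, h⟩ => ⟨e a, by simpa using ha, (CC_map e).2 (by simpa using h)⟩⟩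

theorem TI.map (h : TI A) : TI (A.comap e.symm.toMonoidHom) := fun g k h1 h2 h3 h4 =>
  (NN_map e).2 (h _ _ ((CC_map e).1 h1) (by rw [← map_mul, h2, map_one]) (by simpa using h3)
    (by simpa using (CC_map e).1 h4))

/-- transport along an isomorphism -/
def Sk.map (S : Sk G) (e : G ≃* H) : Sk H where
  A := S.A.comap e.symm.toMonoidHom
  z := e S.z
  τ := e S.τ
  P := S.P.comap e.symm.toMonoidHom
  π x := S.π (e.symm x)
  PA _ hx := S.PA hx
  τP := by simpa using S.τP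
  τK h := S.τK (by simpa using (CC_map e).1 h)
  ττ := by rw [← map_mul, S.ττ, map_one]
  πτ := by simpa using S.πτ
  zP := by simpa using S.zP
  zK := (CC_map e).2 (by simpa using S.zK)
  add x hx y hy := by simpa using S.add _ hx _ hy
  ker0 x hx h := by
    have : e.symm x = 1 ∨ e.symm x = S.τ ∨ e.symm x = S.z ∨ e.symm x = S.z * S.τ := S.ker0 _ hx h
    simpa only [e.symm_apply_eq, map_one, map_mul] using this
  comm x hx y hy := e.symm.injective (by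
    simpa [← map_zp e.toMonoidHom] using (S.comm _ hx _ hy).trans (by
      rw [← e.symm_apply_apply (zp S.τ _)]; exact congrArg _ (congrArg _ (map_zp e.toMonoidHom _))))
  sqr x hx := e.symm.injective (by
    rw [map_mul, S.sqr (e.symm x) hx, ← e.symm_apply_apply (zp S.τ _)]; exact congrArg _ (map_zp e.toMonoidHom _))
  perp _ hx := S.perp _ hx
  onto a h := by
    obtain ⟨x, hx, rfl⟩ := S.onto a h
    exact ⟨e x, by simpa using hx, by simp⟩
  ZP w h := S.ZP _ ((Zs_map e).1 h)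
  tbK x hx h := (S.tbK _ hx h).imp (CC_map e).2 fun k => (CC_map e).2 (by simpa using k)
  sgN n hn := by
    obtain ⟨a, ha, h⟩ := S.sgN _ ((NN_map e).1 hn)
    exact ⟨e a, by simpa using ha, e.symm.injective (by simpa using h)⟩
  odd := by
    rw [show {x | ∃ a ∈ S.A.comap e.symm.toMonoidHom, a * e S.τ * a⁻¹ = x} =
      e '' {x | ∃ a ∈ S.A, a * S.τ * a⁻¹ = x} from Set.ext fun x =>
        ⟨fun ⟨a, ha, h⟩ => ⟨_, ⟨_, ha, rfl⟩, by simpa using h⟩,
          fun ⟨_, ⟨a, ha, rfl⟩, h⟩ => ⟨e a, by simpa using ha, by simpa using h⟩⟩,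
      Set.ncard_image_of_injective _ e.injective]
    exact S.odd
  act d h0 h1 h2 := (S.act _ ((NN_map e).1 h0) ((comm_map e).1 h1) ((comm_map e).1 h2)).imp fun _ => (Act.map e).2
  ker d h0 h1 h2 h3 := by
    obtain ⟨b, hb, h⟩ := S.ker _ ((NN_map e).1 h0) ((comm_map e).1 h1) ((comm_map e).1 h2) ((Act.map e).1 h3)
    exact ⟨e b, by simpa using hb, (CC_map e).2 (by simpa using h)⟩
  surj γ h := by
    obtain ⟨d, h1, h2, h3⟩ := S.surj γ h
    exact ⟨e d, by simpa using h1, (comm_map e).2 (by simpa using h2), (Act.map e).2 (by simpa using h3)⟩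
  idx w hw x hx y hy h1 h2 := by
    simpa only [InM_map, map_mul] using S.idx _ ((Zs_map e).1 hw) _ ((NN_map e).1 hx) _ ((NN_map e).1 hy)
      (by rw [← map_mul, h1, map_mul]) (by rw [← map_mul, h2, map_mul])
  cls a ha h := by
    obtain ⟨d, hd, b, hb, h⟩ := S.cls _ ha (by simpa using (CC_map e).1 h)
    exact ⟨e d, by simpa using hd, e b, by simpa using hb, (CC_map e).2 (by simpa using h)⟩

end map

/-- the conjugate subgroup -/
abbrev cA (A : Subgroup G) (g : G) : Subgroup G := A.comap (MulAut.conj g).symm.toMonoidHom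

theorem mem_cA {A : Subgroup G} {g x : G} : x ∈ cA A g ↔ g⁻¹ * x * g ∈ A := Iff.rfl

theorem CC_cA {A : Subgroup G} {g x : G} : x ∈ CC (cA A g) ↔ g⁻¹ * x * g ∈ CC A := CC_map _

theorem NN_cA {A : Subgroup G} {g x : G} : x ∈ NN (cA A g) ↔ g⁻¹ * x * g ∈ NN A := NN_map _

theorem Zs_cA {A : Subgroup G} {g x : G} : Zs (cA A g) x ↔ Zs A (g⁻¹ * x * g) := Zs_map _

theorem InM_cA {A : Subgroup G} {g x : G} : InM (cA A g) x ↔ InM A (g⁻¹ * x * g) := InM_map _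

theorem cA_mul (A : Subgroup G) (g h : G) : cA (cA A h) g = cA A (g * h) :=
  Subgroup.ext fun x => by rw [mem_cA, mem_cA, mem_cA, mul_inv_rev]; simp only [mul_assoc]

theorem cA_eq {A : Subgroup G} {g : G} : cA A g = A ↔ g ∈ NN A :=
  ⟨fun e => mem_normalizer_iff.2 fun x => by
    nth_rw 2 [← e]; rw [mem_cA]; simp [mul_assoc],
    fun h => Subgroup.ext fun x => by
      rw [mem_cA]; simpa using (mem_normalizer_iff.1 (inv_mem h) x).symm⟩

theorem TI.cA {A : Subgroup G} (h : TI A) (g : G) : TI (cA A g) := h.map _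

/-- centralisers of involutions of the centraliser normalise -/
theorem TI.cent {A : Subgroup G} (h : TI A) {k g : G} (h1 : k ∈ CC A) (h2 : k * k = 1) (h3 : k ≠ 1)
    (c : g * k = k * g) : g ∈ NN A := h g k h1 h2 h3 (by rwa [c, mul_inv_cancel_right])

/-- two different conjugates have no common involution in their centralisers -/
theorem TI.eq_one {A : Subgroup G} (h : TI A) {k g : G} (n : g ∉ NN A) (h1 : k ∈ CC A) (h2 : k ∈ CC (BE.cA A g))
    (h3 : k * k = 1) : k = 1 :=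
  by_contra fun e => n (inv_mem_iff.1 (h g⁻¹ k h1 h3 e (by simpa using CC_cA.1 h2)))

theorem CC_conj {A : Subgroup G} {n k : G} (hn : n ∈ NN A) (hk : k ∈ CC A) : n * k * n⁻¹ ∈ CC A := fun a ha => by
  have := hk _ ((mem_normalizer_iff.1 (inv_mem hn) a).1 ha)
  calc a * (n * k * n⁻¹) = n * (n⁻¹ * a * n⁻¹⁻¹ * k) * n⁻¹ := by group
    _ = _ := by rw [this]; group

theorem Zs.conj {A : Subgroup G} {n w : G} (h : Zs A w) (hn : n ∈ NN A) : Zs A (n * w * n⁻¹) :=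
  ⟨(mem_normalizer_iff.1 hn w).1 h.1, CC_conj hn h.2.1, by rw [conj_mul, h.2.2.1]; group,
    fun e => h.2.2.2 (conj_eq_one_iff.1 e)⟩

namespace Sk

variable (S : Sk G)

/-- the conjugate structure -/
def cj (g : G) : Sk G := S.map (MulAut.conj g)

@[simp] theorem cj_A (g : G) : (S.cj g).A = cA S.A g := rfl
@[simp] theorem cj_τ (g : G) : (S.cj g).τ = g * S.τ * g⁻¹ := rfl
@[simp] theorem cj_z (g : G) : (S.cj g).z = g * S.z * g⁻¹ := rfl
theorem cj_P {g x : G} : x ∈ (S.cj g).P ↔ g⁻¹ * x * g ∈ S.P := Iff.rfl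

theorem τ1 : S.τ ≠ 1 := fun e => S.τK (e ▸ one_mem _)

theorem one : S.π 1 = 0 := by simpa using S.add 1 (one_mem _) 1 (one_mem _)

theorem inv {x : G} (hx : x ∈ S.P) : S.π x⁻¹ = S.π x :=
  add_eq_zero.1 (by rw [← S.add _ (inv_mem hx) _ hx, inv_mul_cancel, S.one])

theorem commute_iff {x y : G} (hx : x ∈ S.P) (hy : y ∈ S.P) : x * y = y * x ↔ be (S.π x) (S.π y) = 0 := by
  rw [S.comm x hx y hy, mul_eq_left, zp_eq_one_iff S.τ1]

theorem sq_iff {x : G} (hx : x ∈ S.P) : x * x = 1 ↔ qq (S.π x) = 0 := by rw [S.sqr x hx, zp_eq_one_iff S.τ1]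

theorem Pτ {x : G} (hx : x ∈ S.P) : x * S.τ = S.τ * x := (S.commute_iff hx S.τP).2 (by rw [S.πτ, map_zero])

theorem mulτ {x : G} (hx : x ∈ S.P) : S.π (x * S.τ) = S.π x := by rw [S.add x hx _ S.τP, S.πτ, add_zero]

theorem conj {x y : G} (hx : x ∈ S.P) (hy : y ∈ S.P) : x * y * x⁻¹ = y * zp S.τ (be (S.π x) (S.π y)) := by
  rw [S.comm x hx y hy, mul_assoc y, zp_comm (S.Pτ hx)]; group

theorem conj_τ {x : G} (hx : x ∈ S.P) (h0 : S.π x ≠ 0) (h1 : S.π x ≠ tb) : ∃ p ∈ S.P, p * x * p⁻¹ = x * S.τ := by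
  obtain ⟨a, ha, e⟩ := exists_be h0 h1
  obtain ⟨p, hp, rfl⟩ := S.onto a ha
  exact ⟨p, hp, by rw [S.conj hp hx, e, zp_one]⟩

theorem two : IsPGroup 2 S.P := fun x => ⟨2, Subtype.ext (by
  rw [show 2 ^ 2 = 2 * 2 from rfl, SubmonoidClass.coe_pow, pow_mul, pow_two (x : G), S.sqr _ x.2, pow_two,
    ← zp_add S.ττ, CharTwo.add_self_eq_zero, zp_zero]; rfl)⟩

/-- the classes of central elements -/
theorem π_cent {x : G} (hx : x ∈ S.P) (h : ∀ y ∈ S.P, y * x = x * y) : S.π x = 0 ∨ S.π x = tb :=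
  mem_one fun c hc => by
    obtain ⟨y, hy, rfl⟩ := S.onto c ((be_comm _ _).trans hc)
    exact (S.commute_iff hy hx).1 (h y hy)

theorem π_K {x : G} (hx : x ∈ S.P) (h : x ∈ CC S.A) : S.π x = 0 ∨ S.π x = tb :=
  S.π_cent hx fun y hy => h y (S.PA hy)

theorem K_of {x : G} (hx : x ∈ S.P) (h : S.π x = 0 ∨ S.π x = tb) : x ∈ CC S.A ∨ x * S.τ ∈ CC S.A := by
  refine h.elim (fun h => ?_) (S.tbK x hx)
  rcases S.ker0 x hx h with rfl | rfl | rfl | rfl
  exacts [.inl (one_mem _), .inr (S.ττ ▸ one_mem _), .inl S.zK, .inr (by rw [mul_assoc, S.ττ, mul_one]; exact S.zK)]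

theorem zz : S.z * S.z = 1 :=
  (S.sq_iff S.zP).2 ((S.π_K S.zP S.zK).elim (fun e => e ▸ qq_zero) fun e => e ▸ ta_tb.qq)

/-- a central involution of class `tb` -/
theorem exists_t : ∃ t ∈ S.P, S.π t = tb ∧ Zs S.A t := by
  obtain ⟨x, hx, e⟩ := S.onto tb (be_self _)
  have k : ∀ x ∈ S.P, S.π x = tb → x ∈ CC S.A → Zs S.A x := fun x hx e h =>
    ⟨S.PA hx, h, (S.sq_iff hx).2 (e ▸ ta_tb.qq), fun f => tb_ne (by rw [← e, f, S.one])⟩
  rcases S.tbK x hx e with h | h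
  exacts [⟨x, hx, e, k x hx e h⟩, ⟨_, mul_mem hx S.τP, (S.mulτ hx).trans e, k _ (mul_mem hx S.τP) ((S.mulτ hx).trans e) h⟩]

/-- the coordinates of a subgroup -/
def img (N : Subgroup G) (h : N ≤ S.P) : AddSubgroup V where
  carrier := {a | ∃ x ∈ N, S.π x = a}
  zero_mem' := ⟨1, N.one_mem, S.one⟩
  add_mem' := by
    rintro _ _ ⟨x, hx, rfl⟩ ⟨y, hy, rfl⟩
    exact ⟨_, N.mul_mem hx hy, S.add _ (h hx) _ (h hy)⟩
  neg_mem' := fun {a} h => by rwa [neg_eq_of_add_eq_zero_left (add_self a)]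

/-- a 2-subgroup of the normaliser centralises a member of the class of `τ` -/
theorem fix_sg {N : Subgroup G} (h2 : IsPGroup 2 N) (h : N ≤ NN S.A) :
    ∃ a ∈ S.A, ∀ x ∈ N, x * (a * S.τ * a⁻¹) = a * S.τ * a⁻¹ * x := by
  let _ : MulAction N {x | ∃ a ∈ S.A, a * S.τ * a⁻¹ = x} :=
    { smul := fun n x => ⟨n * x * (n : G)⁻¹, by
        obtain ⟨_, a, ha, rfl⟩ := x
        obtain ⟨b, hb, e⟩ := S.sgN _ (mul_mem (h n.2) (le_normalizer ha))
        exact ⟨b, hb, by rw [← e]; group⟩⟩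
      one_smul := fun x => Subtype.ext (show ((1 : N) : G) * x * ((1 : N) : G)⁻¹ = x by simp)
      mul_smul := fun a b x => Subtype.ext (show ((a * b : N) : G) * x * ((a * b : N) : G)⁻¹ =
        a * (b * x * (b : G)⁻¹) * (a : G)⁻¹ by simp [mul_assoc]) }
  obtain ⟨⟨_, a, ha, rfl⟩, e⟩ := h2.nonempty_fixed_point_of_prime_not_dvd_card
    {x | ∃ a ∈ S.A, a * S.τ * a⁻¹ = x} (by rw [Nat.card_coe_set_eq]; exact S.odd.not_two_dvd_nat)
  exact ⟨a, ha, fun x hx => mul_inv_eq_iff_eq_mul.1 (congrArg Subtype.val (e ⟨x, hx⟩))⟩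

/-- an element centralising the centraliser in `P` of an element of `P` -/
theorem fix (ti : TI S.A) {a d : G} (ha : a ∈ S.P) (h : ∀ x ∈ S.P, x * a = a * x → d * x = x * d) :
    ∃ b ∈ S.P, b⁻¹ * d ∈ CC S.A ∧ (S.π b = 0 ∨ S.π b = tb ∨ S.π b = S.π a ∨ S.π b = tb + S.π a) := by
  obtain ⟨t, ht, -, zt⟩ := S.exists_t
  have k : ∀ x ∈ S.P, x ∈ CC S.A → d * x = x * d := fun x hx m => h x hx (m a (S.PA ha)).symm
  have n := ti.cent zt.2.1 zt.2.2.1 zt.2.2.2 (k t ht zt.2.1)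
  have c := h _ S.τP (S.Pτ ha).symm
  obtain ⟨γ, hγ⟩ := S.act d n c (k _ S.zP S.zK)
  have l : ∀ c, be tb c = 0 → be (S.π a) c = 0 → ∃ x ∈ S.P, S.π x = c ∧ d * x = x * d := fun c h1 h2 => by
    obtain ⟨x, hx, rfl⟩ := S.onto c ((be_comm _ _).trans h1)
    exact ⟨x, hx, rfl, h x hx ((S.commute_iff ha hx).2 h2).symm⟩
  obtain rfl : γ = 1 := siegel ((be_comm _ _).trans (S.perp a ha)) fun c h1 h2 => by
    obtain ⟨x, hx, rfl, e⟩ := l c h1 h2
    rw [← (hγ x hx).2, e, mul_inv_cancel_right]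
  obtain ⟨b, hb, m⟩ := S.ker d n c (k _ S.zP S.zK) hγ
  refine ⟨b, hb, m, mem_two fun c h1 h2 => ?_⟩
  obtain ⟨x, hx, rfl, e⟩ := l c h1 h2
  refine (S.commute_iff hx hb).1 ?_
  have := m x (S.PA hx)
  calc x * b = b * (b⁻¹ * (x * d) * d⁻¹) * b := by group
    _ = _ := by rw [← e, ← mul_assoc b⁻¹, ← this]; group

end Sk

theorem eqns_Sk : True := by
  have := @Zs.eq_1.{0}
  have := @InM.eq_1.{0}
  have := @TI.eq_1.{0}
  have := @Sk.map.eq_1.{0, 0}
  have := @Sk.cj.eq_1.{0}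
  have := @Sk.img.eq_1.{0}
  have := @CC.eq_1.{0}
  have := @NN.eq_1.{0}
  have := @cA.eq_1.{0}
  trivial

end H94.BE
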